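import Cfsg.Agent.TwoSubgroup16.VModule
import Cfsg.Agent.CharP.McBride
import Cfsg.Agent.Eq.Def_LocalEven
import Mathlib.GroupTheory.SemidirectProduct

/-!
`X / C_X(V)` acting on `V` inside a semidirect product.
-/

set_option autoImplicit false

open Cfsg
open CfsgLib.ConjFunctor (conjOf conjOf_conjOf conjOf_one card_conjOf conjOf_mono conj_mem_conjOf mem_normalizer_iff_conjOf conjOf_le_iff mem_conjOf)

namespace CfsgLib.TwoSubgroup16

variable {X : Type*} [Group X] (V : Subgroup X) [V.Normal]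

/-- The automorphisms of `V` induced by `X`. -/
abbrev ActGrp : Subgroup (MulAut ↥V) := (MulAut.conjNormal : X →* MulAut ↥V).range

/-- `V ⋊ (X / C_X(V))`. -/
abbrev Amb : Type _ := ↥V ⋊[(ActGrp V).subtype] ↥(ActGrp V)

/-- The map of `X` to the ambient group. -/
def toAmb : X →* Amb V :=
  (SemidirectProduct.inr).comp (MulAut.conjNormal : X →* MulAut ↥V).rangeRestrict

/-- The copy of `V`. -/
def vAmb : Subgroup (Amb V) := (SemidirectProduct.inl : ↥V →* Amb V).range

instance finite_amb [Finite X] : Finite (Amb V) := by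
  haveI : Finite (MulAut ↥V) :=
    Finite.of_injective (fun e : MulAut ↥V => (e : ↥V → ↥V)) DFunLike.coe_injective
  exact Finite.of_injective (fun x : Amb V => (x.left, x.right)) fun x y h =>
    SemidirectProduct.ext (congrArg Prod.fst h) (congrArg Prod.snd h)

theorem conj_inl (x : X) (v : ↥V) :
    toAmb V x * SemidirectProduct.inl v * (toAmb V x)⁻¹ =
      SemidirectProduct.inl (MulAut.conjNormal x v) := by
  show SemidirectProduct.inr _ * SemidirectProduct.inl v * (SemidirectProduct.inr _)⁻¹ = _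
  rw [← map_inv, ← SemidirectProduct.inl_aut]
  rfl

theorem commute_inl_iff (x : X) (v : ↥V) :
    toAmb V x * SemidirectProduct.inl v = SemidirectProduct.inl v * toAmb V x ↔ x * v = (v : X) * x := by
  rw [← mul_inv_eq_iff_eq_mul, conj_inl, SemidirectProduct.inl_inj, Subtype.ext_iff, MulAut.conjNormal_apply,
    mul_inv_eq_iff_eq_mul]

theorem vAmb_le_normalizer : (toAmb V).range ≤ Subgroup.normalizer (vAmb V : Set (Amb V)) := by
  rintro _ ⟨x, rfl⟩
  rw [Subgroup.mem_normalizer_iff]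
  intro y
  constructor
  · rintro ⟨v, rfl⟩
    exact ⟨_, (conj_inl V x v).symm⟩
  · rintro ⟨w, hw⟩
    refine ⟨MulAut.conjNormal x⁻¹ w, ?_⟩
    rw [← conj_inl, map_inv, hw]
    group

theorem ker_toAmb : (toAmb V).ker = Subgroup.centralizer (V : Set X) := by
  ext x
  rw [MonoidHom.mem_ker, Subgroup.mem_centralizer_iff]
  constructor
  · intro h v hv
    exact ((commute_inl_iff V x ⟨v, hv⟩).mp (by rw [h, one_mul, mul_one])).symm
  · intro h
    refine SemidirectProduct.ext rfl (Subtype.ext (MulEquiv.ext fun v => Subtype.ext ?_))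
    show x * (v : X) * x⁻¹ = v
    rw [← h v v.2, mul_inv_cancel_right]

/-- The subgroup of `V` corresponding to a subgroup of the ambient group. -/
def backV (H : Subgroup (Amb V)) : Subgroup X := (H.comap SemidirectProduct.inl).map V.subtype

theorem mem_backV {H : Subgroup (Amb V)} {x : X} :
    x ∈ backV V H ↔ ∃ hx : x ∈ V, (SemidirectProduct.inl ⟨x, hx⟩ : Amb V) ∈ H := by
  constructor
  · rintro ⟨v, hv, rfl⟩
    exact ⟨v.2, hv⟩
  · rintro ⟨hx, h⟩
    exact ⟨⟨x, hx⟩, h, rfl⟩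

theorem conjOf_backV (x : X) {H H' : Subgroup (Amb V)}
    (h : H.map (MulAut.conj (toAmb V x)).toMonoidHom = H') : conjOf x (backV V H) = backV V H' := by
  subst h
  ext y
  constructor
  · rintro ⟨w, hw, rfl⟩
    obtain ⟨hwV, hwH⟩ := (mem_backV V).mp hw
    refine (mem_backV V).mpr ⟨‹V.Normal›.conj_mem w hwV x, ⟨_, hwH, ?_⟩⟩
    exact conj_inl V x ⟨w, hwV⟩
  · intro hy
    obtain ⟨hyV, w, hw, hwy⟩ := (mem_backV V).mp hy
    have hw' : w ∈ vAmb V := by
      have h1 := (Subgroup.mem_normalizer_iff.mp (vAmb_le_normalizer V ⟨x, rfl⟩) w).mpr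
      exact h1 ⟨⟨y, hyV⟩, hwy.symm⟩
    obtain ⟨v, rfl⟩ := hw'
    refine ⟨v, (mem_backV V).mpr ⟨v.2, hw⟩, ?_⟩
    have h2 : SemidirectProduct.inl (MulAut.conjNormal x v) = (SemidirectProduct.inl ⟨y, hyV⟩ : Amb V) :=
      (conj_inl V x v).symm.trans hwy
    exact congrArg Subtype.val (SemidirectProduct.inl_inj.mp h2)

theorem card_fix_map (B : Subgroup X) :
    Nat.card ↥(vAmb V ⊓ Subgroup.centralizer ((B.map (toAmb V) : Subgroup (Amb V)) : Set (Amb V))) =
      Nat.card ↥(V ⊓ Subgroup.centralizer (B : Set X)) := by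
  refine (Nat.card_congr (Equiv.ofBijective
    (fun v : ↥(V ⊓ Subgroup.centralizer (B : Set X)) =>
      (⟨SemidirectProduct.inl ⟨v, v.2.1⟩, ⟨_, rfl⟩, Subgroup.mem_centralizer_iff.mpr ?_⟩ :
        ↥(vAmb V ⊓ Subgroup.centralizer ((B.map (toAmb V) : Subgroup (Amb V)) : Set (Amb V))))) ⟨?_, ?_⟩)).symm
  · rintro _ ⟨b, hb, rfl⟩
    exact (commute_inl_iff V b _).mpr (Subgroup.mem_centralizer_iff.mp v.2.2 b hb)
  · intro v w h
    have h1 := SemidirectProduct.inl_inj.mp (congrArg Subtype.val h)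
    exact Subtype.ext (congrArg (fun u : ↥V => (u : X)) h1 :)
  · rintro ⟨_, ⟨v, rfl⟩, hc⟩
    refine ⟨⟨v, v.2, Subgroup.mem_centralizer_iff.mpr fun b hb => ?_⟩, rfl⟩
    exact (commute_inl_iff V b v).mp (Subgroup.mem_centralizer_iff.mp hc _ ⟨b, hb, rfl⟩)

variable [Finite X] {p : ℕ} [Fact p.Prime]

omit [V.Normal] in
theorem card_eq_card_map_mul {Y : Type*} [Group Y] (f : X →* Y) (B : Subgroup X) :
    Nat.card B = Nat.card (B.map f) * Nat.card ↥(B ⊓ f.ker) := by
  have h := (f.subgroupMap B).ker.card_mul_index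
  rw [Subgroup.index_ker, MonoidHom.range_eq_top.mpr (f.subgroupMap_surjective B), Subgroup.card_top] at h
  rw [← h, mul_comm]
  congr 1
  rw [← Nat.card_congr (Subgroup.subgroupOfEquivOfLe (inf_le_left : B ⊓ f.ker ≤ B)).toEquiv]
  congr 2
  ext b
  rw [MonoidHom.mem_ker, Subgroup.mem_subgroupOf, Subgroup.mem_inf, MonoidHom.mem_ker]
  exact ⟨fun h => ⟨b.2, congrArg Subtype.val h⟩, fun h => Subtype.ext h.2⟩

end CfsgLib.TwoSubgroup16
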