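import Cfsg.Agent.TwoSubgroup16.Semilinear
import Cfsg.Agent.Eq.Def_BaumannBlocks
import Cfsg.Agent.ConjFunctor.Basic
import Cfsg.Agent.PushingUp.PSLTwo

/-!
Coordinates for a `p`-subgroup `T` acting on one natural `SL₂`-block.
-/

set_option autoImplicit false

open Cfsg
open scoped MatrixGroups

namespace CfsgLib.TwoSubgroup16

variable {X : Type*} [Group X]

/-- Two elements induce the same map on `N` by conjugation. -/
def SameOn (N : Subgroup X) (a u : X) : Prop := ∀ x ∈ N, a * x * a⁻¹ = u * x * u⁻¹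

/-- `E` is `SL₂(F)` in its natural action on `N`, with `CharP F p`. -/
def IsNatBlock (p : ℕ) (E N : Subgroup X) : Prop :=
  ∃ (F : Type) (_ : Field F) (_ : Fintype F) (_ : CharP F p), ActsAsSL2OnSection F ⊤ E N ⊥

/-- Coordinates on a block. -/
structure Coord (F : Type) [Field F] (T E N : Subgroup X) where
  /-- The coordinates of `N`. -/
  crd : ↥N ≃ (Fin 2 → F)
  crd_mul : ∀ x y, crd (x * y) = crd x + crd y
  /-- The representation of `E`. -/
  ρ : ↥E →* SL(2, F)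
  ρ_surj : Function.Surjective ρ
  norm : E ≤ Subgroup.normalizer (N : Set X)
  act_ρ : ∀ (e : ↥E) (x y : ↥N), (y : X) = (e : X) * x * (e : X)⁻¹ →
    crd y = (ρ e : Matrix (Fin 2) (Fin 2) F).mulVec (crd x)
  /-- The action of the stabiliser in `T`. -/
  α : ↥(T ⊓ Subgroup.normalizer (N : Set X)) →* AddMonoid.End (Fin 2 → F)
  α_spec : ∀ (a : ↥(T ⊓ Subgroup.normalizer (N : Set X))) (x y : ↥N),
    (a : X) * x * (a : X)⁻¹ = y → α a (crd x) = crd y

theorem exists_coord {p : ℕ} {E N : Subgroup X} (T : Subgroup X) (h : IsNatBlock p E N) :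
    ∃ (F : Type) (_ : Field F) (_ : Fintype F) (_ : CharP F p), Nonempty (Coord F T E N) := by
  obtain ⟨F, iF, iT, iC, hEN, -, ρ, ψ, hρ, hψ, hker, hact⟩ := h
  refine ⟨F, iF, iT, iC, ?_⟩
  have hψi : Function.Injective ψ := by
    rw [← MonoidHom.ker_eq_bot_iff, eq_bot_iff]
    intro u hu
    exact Subgroup.mem_bot.mpr (Subtype.ext (Subgroup.mem_bot.mp ((hker u).mp (MonoidHom.mem_ker.mp hu))))
  let c : ↥N ≃ (Fin 2 → F) := (Equiv.ofBijective ψ ⟨hψi, hψ⟩).trans Multiplicative.toAdd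
  have hcm : ∀ x y, c (x * y) = c x + c y := fun x y => by
    show (ψ (x * y)).toAdd = (ψ x).toAdd + (ψ y).toAdd
    rw [map_mul, toAdd_mul]
  have hc1 : c.symm 0 = 1 := by
    rw [Equiv.symm_apply_eq]
    show 0 = (ψ 1).toAdd
    rw [map_one, toAdd_one]
  have hca : ∀ v w, c.symm (v + w) = c.symm v * c.symm w := fun v w => by
    rw [Equiv.symm_apply_eq, hcm, Equiv.apply_symm_apply, Equiv.apply_symm_apply]
  have hmem : ∀ (a : ↥(T ⊓ Subgroup.normalizer (N : Set X))) (x : ↥N),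
      (a : X) * x * (a : X)⁻¹ ∈ N := fun a x => (Subgroup.mem_normalizer_iff.mp a.2.2 _).mp x.2
  let cj : ↥(T ⊓ Subgroup.normalizer (N : Set X)) → ↥N → ↥N := fun a x => ⟨_, hmem a x⟩
  have hcj : ∀ a x y, cj a (x * y) = cj a x * cj a y := fun a x y => Subtype.ext (by simp [cj, mul_assoc])
  have hcj1 : ∀ a, cj a 1 = 1 := fun a => Subtype.ext (by simp [cj])
  let act : ↥(T ⊓ Subgroup.normalizer (N : Set X)) → AddMonoid.End (Fin 2 → F) := fun a =>
    { toFun := fun v => c (cj a (c.symm v))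
      map_zero' := by rw [hc1, hcj1, ← hc1, Equiv.apply_symm_apply]
      map_add' := fun v w => by rw [hca, hcj, hcm] }
  refine ⟨{
    crd := c
    crd_mul := hcm
    ρ := ρ
    ρ_surj := MonoidHom.range_eq_top.mp hρ
    norm := hEN
    act_ρ := fun e x y hy => by
      obtain ⟨w, hw, hwc⟩ := hact e x
      rw [show y = w from Subtype.ext (hy.trans hw.symm)]
      exact hwc
    α :=
      { toFun := act
        map_one' := DFunLike.ext _ _ fun v => by
          show c (cj 1 (c.symm v)) = v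
          rw [show cj 1 (c.symm v) = c.symm v from Subtype.ext (by simp [cj]), Equiv.apply_symm_apply]
        map_mul' := fun a b => DFunLike.ext _ _ fun v => by
          show c (cj (a * b) (c.symm v)) = c (cj a (c.symm (c (cj b (c.symm v)))))
          rw [Equiv.symm_apply_apply]
          exact congrArg c (Subtype.ext (by simp [cj, mul_assoc])) }
    α_spec := fun a x y h => by
      show c (cj a (c.symm (c x))) = c y
      rw [Equiv.symm_apply_apply]
      exact congrArg c (Subtype.ext h) }⟩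

namespace Coord

variable {F : Type} [Field F] {T E N : Subgroup X} (C : Coord F T E N)

theorem crd_one : C.crd 1 = 0 := by
  have h := C.crd_mul 1 1
  rw [mul_one] at h
  simpa using h

theorem mem (a : ↥(T ⊓ Subgroup.normalizer (N : Set X))) (x : ↥N) : (a : X) * x * (a : X)⁻¹ ∈ N :=
  (Subgroup.mem_normalizer_iff.mp a.2.2 _).mp x.2

theorem α_eq_iff (a b : ↥(T ⊓ Subgroup.normalizer (N : Set X))) :
    C.α a = C.α b ↔ SameOn N (a : X) b := by
  constructor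
  · intro h x hx
    have h1 := C.α_spec a ⟨x, hx⟩ ⟨_, Coord.mem a ⟨x, hx⟩⟩ rfl
    rw [h, C.α_spec b ⟨x, hx⟩ ⟨_, Coord.mem b ⟨x, hx⟩⟩ rfl] at h1
    exact congrArg Subtype.val (C.crd.injective h1.symm)
  · intro h
    refine DFunLike.ext _ _ fun v => ?_
    obtain ⟨x, rfl⟩ := C.crd.surjective v
    rw [C.α_spec a x ⟨_, Coord.mem a x⟩ rfl, C.α_spec b x ⟨_, Coord.mem b x⟩ rfl]
    exact congrArg C.crd (Subtype.ext (h _ x.2))

theorem α_of_mem {u : X} (hu : u ∈ T ⊓ E) (v : Fin 2 → F) :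
    C.α ⟨u, hu.1, C.norm hu.2⟩ v = (C.ρ ⟨u, hu.2⟩ : Matrix (Fin 2) (Fin 2) F).mulVec v := by
  obtain ⟨x, rfl⟩ := C.crd.surjective v
  rw [C.α_spec _ x ⟨_, Coord.mem ⟨u, hu.1, C.norm hu.2⟩ x⟩ rfl]
  exact C.act_ρ ⟨u, hu.2⟩ x _ rfl

theorem fixed_of_α (r : ↥(T ⊓ Subgroup.normalizer (N : Set X))) (x : ↥N)
    (h : C.α r (C.crd x) = C.crd x) : (r : X) * x = x * r := by
  rw [C.α_spec r x ⟨_, Coord.mem r x⟩ rfl] at h
  exact mul_inv_eq_iff_eq_mul.mp (congrArg Subtype.val (C.crd.injective h))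

theorem normalizesSL (hTE : ∀ t ∈ T, t ∈ Subgroup.normalizer (N : Set X) → t ∈ Subgroup.normalizer (E : Set X))
    {A : Type*} [Group A] (β : A →* AddMonoid.End (Fin 2 → F)) (hr : ∀ a, ∃ r, C.α r = β a) :
    NormalizesSL β := by
  intro a g
  obtain ⟨r, hr⟩ := hr a
  obtain ⟨e, rfl⟩ := C.ρ_surj g
  have he : (r : X) * e * (r : X)⁻¹ ∈ E := (Subgroup.mem_normalizer_iff.mp (hTE _ r.2.1 r.2.2) _).mp e.2
  refine ⟨C.ρ ⟨_, he⟩, fun v => ?_⟩
  obtain ⟨x, rfl⟩ := C.crd.surjective v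
  rw [← hr, C.α_spec r x ⟨_, Coord.mem r x⟩ rfl]
  have hy : (e : X) * x * (e : X)⁻¹ ∈ N := (Subgroup.mem_normalizer_iff.mp (C.norm e.2) _).mp x.2
  rw [← C.act_ρ e x ⟨_, hy⟩ rfl, C.α_spec r ⟨_, hy⟩ ⟨_, Coord.mem r ⟨_, hy⟩⟩ rfl]
  refine C.act_ρ ⟨_, he⟩ ⟨_, Coord.mem r x⟩ ⟨_, Coord.mem r ⟨_, hy⟩⟩ ?_
  show (r : X) * ((e : X) * x * (e : X)⁻¹) * (r : X)⁻¹ =
    (r : X) * e * (r : X)⁻¹ * ((r : X) * x * (r : X)⁻¹) * ((r : X) * e * (r : X)⁻¹)⁻¹
  group

end Coord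

end CfsgLib.TwoSubgroup16
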