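import Cfsg.Agent.TwoSubgroup16.BlockCoord

/-!
A `p`-subgroup `T` acting on one natural `SL₂`-block.
-/

set_option autoImplicit false

open Cfsg
open scoped MatrixGroups

namespace CfsgLib.TwoSubgroup16

variable {X : Type*} [Group X] [Finite X] {p : ℕ} [Fact p.Prime] {T E N : Subgroup X}

theorem finite_end (F : Type) [Finite F] [Field F] : Finite (AddMonoid.End (Fin 2 → F)) :=
  Finite.of_injective (fun f : AddMonoid.End (Fin 2 → F) => (f : (Fin 2 → F) → (Fin 2 → F)))
    DFunLike.coe_injective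

/-- The map induced on the quotient by the kernel, for a monoid as codomain. -/
def kerLiftM {G M : Type*} [Group G] [Monoid M] (f : G →* M) : G ⧸ f.ker →* M :=
  QuotientGroup.lift f.ker f le_rfl

theorem kerLiftM_injective {G M : Type*} [Group G] [Monoid M] (f : G →* M) : Function.Injective (kerLiftM f) := by
  intro a b h
  induction a using QuotientGroup.induction_on with
  | H a => induction b using QuotientGroup.induction_on with
    | H b =>
      rw [QuotientGroup.eq, MonoidHom.mem_ker, map_mul]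
      change f a = f b at h
      rw [← h, ← map_mul, inv_mul_cancel, map_one]

/-- The setting for one block. -/
structure BlockHyp (p : ℕ) (T E N : Subgroup X) : Prop where
  ne_two : p ≠ 2
  isP : IsPGroup p T
  nat : IsNatBlock p E N
  normal : ∀ t ∈ T, t ∈ Subgroup.normalizer (N : Set X) → t ∈ Subgroup.normalizer (E : Set X)
  sylow : ¬ p ∣ (T ⊓ E).relIndex E

namespace BlockHyp

variable {F : Type} [Field F] [Fintype F] [CharP F p] (h : BlockHyp p T E N) (C : Coord F T E N)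

include h

/-- The linear maps induced by `T` are those induced by `T ∩ E`. -/
theorem linear_eq :
    {f | (∃ r, C.α r = f) ∧ ∀ (c : F) v, f (c • v) = c • f v} =
      Set.range (fun u : ↥(T ⊓ E) => C.α ⟨u.1, u.2.1, C.norm u.2.2⟩) ∧
    Nat.card F ≤ (Set.range (fun u : ↥(T ⊓ E) => C.α ⟨u.1, u.2.1, C.norm u.2.2⟩)).ncard ∧
    {f | (∃ r, C.α r = f) ∧ ∀ (c : F) v, f (c • v) = c • f v}.ncard ≤ Nat.card F := by
  classical
  haveI := finite_end F
  set Lin := {f : AddMonoid.End (Fin 2 → F) | (∃ r, C.α r = f) ∧ ∀ (c : F) v, f (c • v) = c • f v}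
  set SU := Set.range (fun u : ↥(T ⊓ E) => C.α ⟨u.1, u.2.1, C.norm u.2.2⟩)
  have hSU : SU ⊆ Lin := by
    rintro f ⟨u, rfl⟩
    exact ⟨⟨_, rfl⟩, fun c v => by rw [C.α_of_mem u.2, C.α_of_mem u.2, Matrix.mulVec_smul]⟩
  have hβ : NormalizesSL (kerLiftM C.α) := C.normalizesSL h.normal _ fun a => by
    induction a using QuotientGroup.induction_on with
    | H r => exact ⟨r, rfl⟩
  obtain ⟨hlinq, -, -⟩ := semilinear_bound h.ne_two ((h.isP.to_le inf_le_left).to_quotient C.α.ker) _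
    (kerLiftM_injective C.α) hβ
  have hLin : Lin.ncard ≤ Nat.card F := by
    refine le_trans ?_ hlinq
    rw [← Nat.card_coe_set_eq]
    refine Nat.card_le_card_of_injective (fun f : Lin =>
      (⟨QuotientGroup.mk f.2.1.choose, fun c v => ?_⟩ :
        {a // ∀ (c : F) x, kerLiftM C.α a (c • x) = c • kerLiftM C.α a x}))
      fun f g h => ?_
    · show C.α f.2.1.choose (c • v) = c • C.α f.2.1.choose v
      rw [f.2.1.choose_spec]; exact f.2.2 c v
    · refine Subtype.ext ?_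
      rw [← f.2.1.choose_spec, ← g.2.1.choose_spec]
      exact congrArg (kerLiftM C.α) (congrArg Subtype.val h)
  have hUq : Nat.card F ≤ SU.ncard := by
    set U' := ((T ⊓ E).subgroupOf E).map C.ρ with hU'
    have hdvd : Nat.card F ∣ Nat.card U' := by
      let up : Multiplicative F →* SL(2, F) :=
        MonoidHom.mk' (fun a => CfsgLib.PushingUp.upperT a.toAdd) fun a b => by
          rw [toAdd_mul, CfsgLib.PushingUp.upperT_mul]
      have hup : Function.Injective up := by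
        intro a b h
        have := congrArg (fun m : SL(2, F) => (m : Matrix (Fin 2) (Fin 2) F) 0 1) h
        simpa [up, CfsgLib.PushingUp.upperT_coe] using this
      have h1 : Nat.card F ∣ Nat.card SL(2, F) := by
        have := Subgroup.card_dvd_of_injective up hup
        rwa [Nat.card_congr Multiplicative.toAdd] at this
      have h2 : U'.index ∣ ((T ⊓ E).subgroupOf E).index := Subgroup.index_map_dvd _ C.ρ_surj
      rw [← U'.card_mul_index] at h1
      refine Nat.Coprime.dvd_of_dvd_mul_right ?_ h1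
      obtain ⟨n, -, hn⟩ := FiniteField.card F p
      rw [Nat.card_eq_fintype_card, hn]
      refine Nat.Coprime.pow_left _ ((Fact.out : p.Prime).coprime_iff_not_dvd.mpr fun hd => h.sylow ?_)
      exact hd.trans h2
    refine (Nat.le_of_dvd Nat.card_pos hdvd).trans ?_
    rw [← Nat.card_coe_set_eq]
    have hmem : ∀ g : U', ∃ u : ↥(T ⊓ E), C.ρ ⟨u.1, u.2.2⟩ = g.1 := by
      rintro ⟨g, e, he, rfl⟩
      exact ⟨⟨e.1, he⟩, rfl⟩
    choose uf hρu using hmem
    refine Nat.card_le_card_of_injective (fun g : U' => (⟨_, uf g, rfl⟩ : SU)) fun g g' hgg => ?_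
    refine Subtype.ext ((hρu g).symm.trans ((Subtype.ext ?_).trans (hρu g')))
    refine Matrix.ext_of_mulVec_single fun i => ?_
    rw [← C.α_of_mem (uf g).2, ← C.α_of_mem (uf g').2]
    exact DFunLike.congr_fun (congrArg Subtype.val hgg) _
  exact ⟨(Set.eq_of_subset_of_ncard_le hSU (hLin.trans hUq) (Set.toFinite _)).symm, hUq, hLin⟩

theorem inner_of_linear (r : ↥(T ⊓ Subgroup.normalizer (N : Set X)))
    (hl : ∀ (c : F) v, C.α r (c • v) = c • C.α r v) : ∃ u ∈ T ⊓ E, SameOn N (r : X) u := by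
  obtain ⟨u, hu⟩ : C.α r ∈ Set.range (fun u : ↥(T ⊓ E) => C.α ⟨u.1, u.2.1, C.norm u.2.2⟩) :=
    (h.linear_eq C).1 ▸ ⟨⟨r, rfl⟩, hl⟩
  exact ⟨u, u.2, (C.α_eq_iff r ⟨u.1, u.2.1, C.norm u.2.2⟩).mp hu.symm⟩

omit h in
omit [Finite X] [Fact p.Prime] [Fintype F] [CharP F p] in
theorem card_eq (C : Coord F T E N) : Nat.card N = Nat.card F ^ 2 := by
  rw [Nat.card_congr C.crd, Nat.card_fun, Nat.card_fin]

/-- `T ∩ E` fixes a nonzero vector. -/
theorem exists_fixed : ∃ e : Fin 2 → F, (∀ u : ↥(T ⊓ E), C.α ⟨u.1, u.2.1, C.norm u.2.2⟩ e = e) ∧ e ≠ 0 := by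
  letI : MulAction ↥(T ⊓ E) (Fin 2 → F) :=
    { smul := fun u v => C.α (Subgroup.inclusion (inf_le_inf_left T C.norm) u) v
      one_smul := fun v => by
        show C.α (Subgroup.inclusion (inf_le_inf_left T C.norm) 1) v = v
        rw [map_one, map_one]
        rfl
      mul_smul := fun a b v => by
        show C.α (Subgroup.inclusion (inf_le_inf_left T C.norm) (a * b)) v = _
        rw [map_mul, map_mul]
        rfl }
  have hdvd : p ∣ Nat.card (Fin 2 → F) := by
    obtain ⟨n, -, hn⟩ := FiniteField.card F p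
    rw [Nat.card_fun, Nat.card_fin, Nat.card_eq_fintype_card, hn, ← pow_mul]
    exact dvd_pow_self p (by positivity)
  obtain ⟨e, he, hne⟩ := (h.isP.to_le (inf_le_left : T ⊓ E ≤ T)).exists_fixed_point_of_prime_dvd_card_of_fixed_point
    (α := Fin 2 → F) hdvd (a := 0) (fun u => AddMonoidHom.map_zero _)
  exact ⟨e, fun u => he u, hne.symm⟩

/-- An element fixing the fixed line of `T ∩ E` is linear. -/
theorem linear_of_fixes (r : ↥(T ⊓ Subgroup.normalizer (N : Set X)))
    (hfix : ∀ x ∈ N, (∀ u ∈ T ⊓ E, u * x = x * u) → (r : X) * x = x * r) (c : F) (v : Fin 2 → F) :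
    C.α r (c • v) = c • C.α r v := by
  obtain ⟨e, he, hene⟩ := h.exists_fixed C
  have hline : ∀ c : F, C.α r (c • e) = c • e := by
    intro c
    obtain ⟨x, hx⟩ := C.crd.surjective (c • e)
    rw [← hx]
    refine C.α_spec r x x ?_
    rw [hfix x x.2 fun u hu => ?_, mul_inv_cancel_right]
    refine C.fixed_of_α ⟨u, hu.1, C.norm hu.2⟩ x ?_
    rw [hx, C.α_of_mem hu, Matrix.mulVec_smul, ← C.α_of_mem hu, he ⟨u, hu⟩]
  have hβ : NormalizesSL (kerLiftM C.α) := C.normalizesSL h.normal _ fun a => by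
    induction a using QuotientGroup.induction_on with
    | H r => exact ⟨r, rfl⟩
  obtain ⟨σ, hσ⟩ := exists_fieldHom _ hβ
  have hσ1 : ∀ c, σ (QuotientGroup.mk r) c = c := by
    intro c
    have h0 := hline 1
    rw [one_smul] at h0
    have h1 := hσ (QuotientGroup.mk r) c e
    change C.α r (c • e) = _ • C.α r e at h1
    rw [hline c, h0] at h1
    exact (smul_left_injective F hene h1).symm
  have := hσ (QuotientGroup.mk r) c v
  rw [hσ1] at this
  exact this

end BlockHyp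

namespace BlockHyp

variable (h : BlockHyp p T E N)

include h

theorem inner_of_fixes {b : X} (hb : b ∈ T) (hbN : b ∈ Subgroup.normalizer (N : Set X))
    (hfix : ∀ x ∈ N, (∀ u ∈ T ⊓ E, u * x = x * u) → b * x = x * b) : ∃ u ∈ T ⊓ E, SameOn N b u := by
  obtain ⟨F, _, _, _, ⟨C⟩⟩ := exists_coord T h.nat
  exact h.inner_of_linear C ⟨b, hb, hbN⟩ (h.linear_of_fixes C _ hfix)

/-- An element of `T` acting on `N` as some element of `E` acts as some element of `T ∩ E`. -/
theorem inner_of_sameOn {b e : X} (hb : b ∈ T) (hbN : b ∈ Subgroup.normalizer (N : Set X)) (he : e ∈ E)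
    (hsame : SameOn N b e) : ∃ u ∈ T ⊓ E, SameOn N b u := by
  obtain ⟨F, _, _, _, ⟨C⟩⟩ := exists_coord T h.nat
  refine h.inner_of_linear C ⟨b, hb, hbN⟩ fun c v => ?_
  have key : ∀ v, C.α ⟨b, hb, hbN⟩ v = (C.ρ ⟨e, he⟩ : Matrix (Fin 2) (Fin 2) F).mulVec v := by
    intro v
    obtain ⟨x, rfl⟩ := C.crd.surjective v
    rw [C.α_spec _ x ⟨_, Coord.mem ⟨b, hb, hbN⟩ x⟩ rfl]
    exact C.act_ρ ⟨e, he⟩ x _ (hsame x x.2)
  rw [key, key, Matrix.mulVec_smul]

theorem fixed_ne_bot : N ⊓ Subgroup.centralizer ((T ⊓ E : Subgroup X) : Set X) ≠ ⊥ := by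
  obtain ⟨F, _, _, _, ⟨C⟩⟩ := exists_coord T h.nat
  obtain ⟨e, he, hene⟩ := h.exists_fixed C
  obtain ⟨x, rfl⟩ := C.crd.surjective e
  intro h0
  have h1 : (x : X) ∈ N ⊓ Subgroup.centralizer ((T ⊓ E : Subgroup X) : Set X) :=
    ⟨x.2, Subgroup.mem_centralizer_iff.mpr fun u hu => C.fixed_of_α _ x (he ⟨u, hu⟩)⟩
  rw [h0, Subgroup.mem_bot] at h1
  exact hene (by rw [show x = 1 from Subtype.ext h1, C.crd_one])

theorem fixed_eq_bot (H : Subgroup X) (hH : ∀ e ∈ E, ∃ k ∈ H, SameOn N k e) :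
    N ⊓ Subgroup.centralizer (H : Set X) = ⊥ := by
  obtain ⟨F, _, _, _, ⟨C⟩⟩ := exists_coord T h.nat
  rw [eq_bot_iff]
  rintro x ⟨hxN, hxH⟩
  have hfix : ∀ g : SL(2, F), (g : Matrix (Fin 2) (Fin 2) F).mulVec (C.crd ⟨x, hxN⟩) = C.crd ⟨x, hxN⟩ := by
    intro g
    obtain ⟨e, rfl⟩ := C.ρ_surj g
    obtain ⟨k, hk, hks⟩ := hH e e.2
    refine (C.act_ρ e ⟨x, hxN⟩ ⟨x, hxN⟩ ?_).symm
    show x = _
    rw [← hks x hxN, Subgroup.mem_centralizer_iff.mp hxH k hk, mul_inv_cancel_right]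
  have hu := congrFun (hfix (CfsgLib.PushingUp.upperT 1)) 0
  have hl := congrFun (hfix (CfsgLib.PushingUp.lowerT 1)) 1
  simp [CfsgLib.PushingUp.upperT_coe, CfsgLib.PushingUp.lowerT_coe, Matrix.mulVec, dotProduct,
    Fin.sum_univ_two] at hu hl
  have h0 : C.crd ⟨x, hxN⟩ = C.crd 1 := by
    rw [C.crd_one]
    ext i
    fin_cases i <;> simp [hu, hl]
  rw [Subgroup.mem_bot]
  exact congrArg Subtype.val (C.crd.injective h0)

theorem nine_le_card : 9 ≤ Nat.card N := by
  obtain ⟨F, _, _, _, ⟨C⟩⟩ := exists_coord T h.nat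
  rw [card_eq C]
  obtain ⟨n, -, hn⟩ := FiniteField.card F p
  rw [Nat.card_eq_fintype_card, hn]
  have hp3 : 3 ≤ p := lt_of_le_of_ne (Fact.out : p.Prime).two_le (Ne.symm h.ne_two)
  exact Nat.pow_le_pow_left (hp3.trans (Nat.le_self_pow n.pos.ne' p)) 2

/-- The bound at one block. -/
theorem bound {R : Subgroup X} (hRT : R ≤ T) (hRN : R ≤ Subgroup.normalizer (N : Set X)) :
    Nat.card R * Nat.card ↥(N ⊓ Subgroup.centralizer (R : Set X)) ≤
        Nat.card ↥(R ⊓ Subgroup.centralizer (N : Set X)) * Nat.card N ∧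
      (Nat.card R * Nat.card ↥(N ⊓ Subgroup.centralizer (R : Set X)) =
          Nat.card ↥(R ⊓ Subgroup.centralizer (N : Set X)) * Nat.card N →
        (∀ a ∈ R, ∃ u ∈ T ⊓ E, SameOn N a u) ∧
          (R ≤ Subgroup.centralizer (N : Set X) ∨ ∀ u ∈ T ⊓ E, ∃ a ∈ R, SameOn N a u)) := by
  classical
  obtain ⟨F, _, _, _, ⟨C⟩⟩ := exists_coord T h.nat
  haveI := finite_end F
  set ι := Subgroup.inclusion (le_inf hRT hRN) with hι
  set αR := C.α.comp ι with hαR
  have hα : NormalizesSL (kerLiftM αR) := C.normalizesSL h.normal _ fun a => by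
    induction a using QuotientGroup.induction_on with
    | H r => exact ⟨_, rfl⟩
  obtain ⟨-, hle, heq⟩ := semilinear_bound h.ne_two ((h.isP.to_le hRT).to_quotient αR.ker) _
    (kerLiftM_injective αR) hα
  have hkereq : αR.ker = (R ⊓ Subgroup.centralizer (N : Set X)).subgroupOf R := by
    ext a
    rw [MonoidHom.mem_ker, Subgroup.mem_subgroupOf, ← map_one C.α]
    show C.α (ι a) = C.α 1 ↔ _
    rw [C.α_eq_iff]
    constructor
    · intro h
      refine ⟨a.2, Subgroup.mem_centralizer_iff.mpr fun x hx => ?_⟩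
      have h2 := h x hx
      simp [hι] at h2
      exact (mul_inv_eq_iff_eq_mul.mp h2).symm
    · intro h x hx
      have := Subgroup.mem_centralizer_iff.mp h.2 x hx
      simp [hι, ← this]
  have hkc : Nat.card αR.ker = Nat.card ↥(R ⊓ Subgroup.centralizer (N : Set X)) := by
    rw [hkereq]
    exact Nat.card_congr (Subgroup.subgroupOfEquivOfLe inf_le_left).toEquiv
  have hRc : Nat.card R = Nat.card (↥R ⧸ αR.ker) * Nat.card αR.ker :=
    Subgroup.card_eq_card_quotient_mul_card_subgroup _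
  have hfixc : Nat.card ↥(N ⊓ Subgroup.centralizer (R : Set X)) =
      Nat.card {v : Fin 2 → F // ∀ a, kerLiftM αR a v = v} := by
    refine Nat.card_congr
      { toFun := fun x => ⟨C.crd ⟨x, x.2.1⟩, fun a => ?_⟩
        invFun := fun v => ⟨C.crd.symm v.1, (C.crd.symm v.1).2, Subgroup.mem_centralizer_iff.mpr fun r hr => ?_⟩
        left_inv := fun x => Subtype.ext (by simp)
        right_inv := fun v => Subtype.ext (by simp) }
    · induction a using QuotientGroup.induction_on with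
      | H r =>
        refine C.α_spec (ι r) _ _ ?_
        show (r : X) * x * (r : X)⁻¹ = x
        rw [Subgroup.mem_centralizer_iff.mp x.2.2 r r.2, mul_inv_cancel_right]
    · refine C.fixed_of_α (ι ⟨r, hr⟩) _ ?_
      rw [Equiv.apply_symm_apply]
      exact v.2 (QuotientGroup.mk ⟨r, hr⟩)
  rw [hRc, hfixc, card_eq C, ← hkc, mul_comm (Nat.card (↥R ⧸ αR.ker)), mul_assoc]
  refine ⟨Nat.mul_le_mul_left _ hle, fun he' => ?_⟩
  obtain ⟨hlin, hA⟩ := heq (Nat.eq_of_mul_eq_mul_left Nat.card_pos he')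
  refine ⟨fun a ha => h.inner_of_linear C (ι ⟨a, ha⟩) (hlin (QuotientGroup.mk ⟨a, ha⟩)), ?_⟩
  rcases hA with hA | hA
  · refine Or.inl fun a ha => ?_
    have h1 : (QuotientGroup.mk ⟨a, ha⟩ : ↥R ⧸ αR.ker) = 1 := Subsingleton.elim _ _
    rw [QuotientGroup.eq_one_iff, hkereq, Subgroup.mem_subgroupOf] at h1
    exact h1.2
  · refine Or.inr fun u hu => ?_
    obtain ⟨hLU, -, hLin⟩ := h.linear_eq C
    set Lin := {f : AddMonoid.End (Fin 2 → F) | (∃ r, C.α r = f) ∧ ∀ (c : F) v, f (c • v) = c • f v}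
    have hSR : Set.range (kerLiftM αR) ⊆ Lin := by
      rintro f ⟨a, rfl⟩
      refine ⟨?_, hlin a⟩
      induction a using QuotientGroup.induction_on with
      | H r => exact ⟨_, rfl⟩
    have hcR : Lin.ncard ≤ (Set.range (kerLiftM αR)).ncard := by
      rw [← Nat.card_coe_set_eq (Set.range _), Nat.card_range_of_injective (kerLiftM_injective αR), hA]
      exact hLin
    obtain ⟨a, ha⟩ : C.α ⟨u, hu.1, C.norm hu.2⟩ ∈ Set.range (kerLiftM αR) := by
      rw [Set.eq_of_subset_of_ncard_le hSR hcR (Set.toFinite _), hLU]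
      exact ⟨⟨u, hu⟩, rfl⟩
    induction a using QuotientGroup.induction_on with
    | H r => exact ⟨r, r.2, (C.α_eq_iff (ι r) ⟨u, hu.1, C.norm hu.2⟩).mp ha⟩

end BlockHyp

end CfsgLib.TwoSubgroup16
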