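import Cfsg.Agent.TwoSubgroup16.BlockFacts
import Cfsg.Agent.MinParFF.Tools

/-!
Several natural `SL₂`-blocks permuted by a `p`-group `T`, and the bound for abelian subgroups of `T`.
-/

set_option autoImplicit false

open Cfsg
open CfsgLib.ConjFunctor (conjOf conjOf_conjOf conjOf_one card_conjOf conjOf_mono conj_mem_conjOf mem_normalizer_iff_conjOf conjOf_le_iff mem_conjOf)
open CfsgLib.MinParFF (card_sup_mul_inf exists_mul_of_mem_sup normalizes_of_comm)

namespace CfsgLib.TwoSubgroup16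

variable {X : Type*} [Group X]

/-- A decomposition of `V` into natural blocks permuted by `T`. -/
structure Blocks (p : ℕ) (V T : Subgroup X) {r : ℕ} (E N : Fin r → Subgroup X) : Prop where
  pos : 1 ≤ r
  ne_two : p ≠ 2
  Vel : IsElementaryAbelian p V
  Vn : V.Normal
  isP : IsPGroup p T
  N_le : ∀ i, N i ≤ V
  C_le : ∀ i, Subgroup.centralizer (V : Set X) ≤ E i
  E_norm : ∀ i, E i ≤ Subgroup.normalizer (N i : Set X)
  cross : ∀ i j, i ≠ j → E j ≤ Subgroup.centralizer (N i : Set X)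
  gen : (V ⊓ Subgroup.centralizer ((⨆ i, E i : Subgroup X) : Set X)) ⊔ (⨆ i, N i) = V
  indep : ∀ i, N i ⊓ ((V ⊓ Subgroup.centralizer ((⨆ i, E i : Subgroup X) : Set X)) ⊔
    ⨆ j ∈ {j | j ≠ i}, N j) = ⊥
  perm : ∀ t ∈ T, ∀ i, ∃ j, conjOf t (E i) = E j ∧ conjOf t (N i) = N j
  trans : ∀ i j, ∃ t ∈ T, conjOf t (E i) = E j ∧ conjOf t (N i) = N j
  top : (⨆ i, E i) ⊔ T = ⊤
  nat : ∀ i, IsNatBlock p (E i) (N i)
  sylow : ∀ i, ¬ p ∣ (T ⊓ E i).relIndex (E i)
  faith : ∀ x ∈ T, (∀ i, x ∈ Subgroup.centralizer (N i : Set X)) → x ∈ Subgroup.centralizer (V : Set X)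

/-- The sum of the blocks in `S`. -/
def Mb {r : ℕ} (N : Fin r → Subgroup X) (S : Finset (Fin r)) : Subgroup X := ⨆ i ∈ S, N i

/-- `A` permutes the blocks in `S`. -/
def InvSet {r : ℕ} (N : Fin r → Subgroup X) (A : Subgroup X) (S : Finset (Fin r)) : Prop :=
  ∀ a ∈ A, ∀ i ∈ S, ∃ j ∈ S, conjOf a (N i) = N j

/-- The join of the `T ∩ E i`. -/
def UU {r : ℕ} (T : Subgroup X) (E : Fin r → Subgroup X) : Subgroup X := ⨆ i, T ⊓ E i

variable {r : ℕ} {N : Fin r → Subgroup X}

theorem le_Mb {S : Finset (Fin r)} {i : Fin r} (hi : i ∈ S) : N i ≤ Mb N S :=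
  le_biSup N hi

theorem Mb_mono {S S' : Finset (Fin r)} (h : S ⊆ S') : Mb N S ≤ Mb N S' :=
  biSup_mono fun _ hi => h hi

theorem Mb_insert (S : Finset (Fin r)) (i : Fin r) : Mb N (insert i S) = N i ⊔ Mb N S := by
  classical
  exact Finset.iSup_insert i S N

theorem Mb_union (S S' : Finset (Fin r)) : Mb N (S ∪ S') = Mb N S ⊔ Mb N S' := by
  classical
  exact Finset.iSup_union

theorem Mb_singleton (i : Fin r) : Mb N {i} = N i := by simp [Mb]

/-- A set centralizing every block of `S` centralizes their sum. -/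
theorem le_centralizer_Mb {A : Subgroup X} {S : Finset (Fin r)}
    (h : ∀ i ∈ S, A ≤ Subgroup.centralizer (N i : Set X)) : A ≤ Subgroup.centralizer (Mb N S : Set X) :=
  Subgroup.le_centralizer_iff.mpr (iSup₂_le fun i hi => Subgroup.le_centralizer_iff.mpr (h i hi))

namespace Blocks

variable {p : ℕ} {V T : Subgroup X} {E : Fin r → Subgroup X} (D : Blocks p V T E N)

include D

theorem Mb_le (S : Finset (Fin r)) : Mb N S ≤ V := iSup₂_le fun i _ => D.N_le i

theorem inf_Mb {S : Finset (Fin r)} {i : Fin r} (hi : i ∉ S) : N i ⊓ Mb N S = ⊥ := by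
  rw [eq_bot_iff, ← D.indep i]
  refine inf_le_inf_left _ (le_trans ?_ le_sup_right)
  exact iSup₂_le fun j hj => le_biSup N (show j ∈ {j | j ≠ i} from fun h => hi (h ▸ hj))

variable [Finite X] [Fact p.Prime]

theorem nine_le (i : Fin r) : 9 ≤ Nat.card (N i) :=
  BlockHyp.nine_le_card (h := ⟨D.ne_two, D.isP, D.nat i, fun t ht hN => by
    obtain ⟨j, hjE, hjN⟩ := D.perm t ht i
    have hij : j = i := by
      by_contra hne
      have h1 : N i ≤ Mb N {j} := by rw [Mb_singleton, ← hjN, mem_normalizer_iff_conjOf.mp hN]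
      have h2 := D.inf_Mb (S := {j}) (i := i) (by simpa using Ne.symm hne)
      rw [inf_eq_left.mpr h1] at h2
      obtain ⟨F, _, _, _, ⟨C⟩⟩ := exists_coord T (D.nat i)
      have h3 := BlockHyp.card_eq C
      rw [h2, Subgroup.card_bot] at h3
      exact absurd h3.symm (by
        have : 2 ≤ Nat.card F := Finite.one_lt_card
        nlinarith)
    rw [mem_normalizer_iff_conjOf, hjE, hij], D.sylow i⟩)

theorem N_inj {i j : Fin r} (h : N i = N j) : i = j := by
  by_contra hne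
  have h2 := D.inf_Mb (S := {j}) (i := i) (by simpa using hne)
  rw [Mb_singleton, ← h, inf_idem] at h2
  have h3 := D.nine_le i
  rw [h2, Subgroup.card_bot] at h3
  omega

theorem hyp (i : Fin r) : BlockHyp p T (E i) (N i) :=
  ⟨D.ne_two, D.isP, D.nat i, fun t ht hN => by
    obtain ⟨j, hjE, hjN⟩ := D.perm t ht i
    rw [mem_normalizer_iff_conjOf, hjE, D.N_inj (hjN.symm.trans (mem_normalizer_iff_conjOf.mp hN))],
    D.sylow i⟩

theorem card_sup_of_disjoint {H K : Subgroup X} (hH : H ≤ V) (hK : K ≤ V) (h : H ⊓ K = ⊥) :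
    Nat.card ↥(H ⊔ K) = Nat.card H * Nat.card K := by
  haveI := D.Vel.1
  have h1 := card_sup_mul_inf (A := H) (B := K) (normalizes_of_comm hH hK)
  rwa [h, Subgroup.card_bot, mul_one] at h1

theorem card_Mb (S : Finset (Fin r)) : Nat.card (Mb N S) = ∏ i ∈ S, Nat.card (N i) := by
  classical
  induction S using Finset.induction_on with
  | empty => simp [Mb]
  | insert i S hi ih =>
    rw [Mb_insert, D.card_sup_of_disjoint (D.N_le i) (D.Mb_le S) (D.inf_Mb hi), ih,
      Finset.prod_insert hi]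

/-- An element of `Mb S` in `Mb S'` lies in `Mb (S ∩ S')`. -/
theorem Mb_inf (S S' : Finset (Fin r)) : Mb N S ⊓ Mb N S' ≤ Mb N (S ∩ S') := by
  classical
  haveI := D.Vel.1
  induction S using Finset.induction_on with
  | empty => simp [Mb]
  | insert i S hi ih =>
    rintro x ⟨hx, hx'⟩
    rw [SetLike.mem_coe, Mb_insert] at hx
    obtain ⟨n, hn, y, hy, rfl⟩ := exists_mul_of_mem_sup (D.N_le i) (D.Mb_le S) hx
    by_cases his : i ∈ S'
    · have hy' : y ∈ Mb N S' := by
        have := mul_mem (inv_mem (le_Mb his hn)) hx'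
        rwa [inv_mul_cancel_left] at this
      refine mul_mem (le_Mb (Finset.mem_inter.mpr ⟨Finset.mem_insert_self i S, his⟩) hn)
        (Mb_mono (Finset.inter_subset_inter_right (Finset.subset_insert i S)) (ih ⟨hy, hy'⟩))
    · have hn1 : n ∈ N i ⊓ Mb N (S ∪ S') := by
        refine ⟨hn, ?_⟩
        have := mul_mem (Mb_mono Finset.subset_union_right hx')
          (inv_mem (Mb_mono (N := N) (S' := S ∪ S') Finset.subset_union_left hy))
        rwa [mul_inv_cancel_right] at this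
      rw [D.inf_Mb (by simp [hi, his]), Subgroup.mem_bot] at hn1
      subst hn1
      rw [one_mul] at hx' ⊢
      exact Mb_mono (Finset.inter_subset_inter_right (Finset.subset_insert i S)) (ih ⟨hy, hx'⟩)

omit [Fact p.Prime] in
theorem conj_Mb_le {A : Subgroup X} {S : Finset (Fin r)} (hS : InvSet N A S) {a : X} (ha : a ∈ A) :
    conjOf a (Mb N S) ≤ Mb N S := by
  unfold Mb
  simp only [conjOf, Subgroup.map_iSup]
  refine iSup₂_le fun i hi => ?_
  obtain ⟨j, hj, hij⟩ := hS a ha i hi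
  exact hij.le.trans (le_biSup N hj)

theorem card_fix_union {A : Subgroup X} {S S' : Finset (Fin r)} (hd : Disjoint S S')
    (hS : InvSet N A S) (hS' : InvSet N A S') :
    Nat.card ↥(Mb N (S ∪ S') ⊓ Subgroup.centralizer (A : Set X)) =
      Nat.card ↥(Mb N S ⊓ Subgroup.centralizer (A : Set X)) *
        Nat.card ↥(Mb N S' ⊓ Subgroup.centralizer (A : Set X)) := by
  classical
  haveI := D.Vel.1
  have hbot : Mb N S ⊓ Mb N S' = ⊥ := by
    rw [eq_bot_iff]
    refine (D.Mb_inf S S').trans ?_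
    rw [Finset.disjoint_iff_inter_eq_empty.mp hd]
    simp [Mb]
  rw [← D.card_sup_of_disjoint (inf_le_left.trans (D.Mb_le S)) (inf_le_left.trans (D.Mb_le S'))
    (le_bot_iff.mp ((inf_le_inf inf_le_left inf_le_left).trans hbot.le)), Mb_union]
  refine congrArg (fun H : Subgroup X => Nat.card ↥H) ?_
  refine le_antisymm ?_ (sup_le (inf_le_inf_right _ le_sup_left) (inf_le_inf_right _ le_sup_right))
  rintro x ⟨hx, hxA⟩
  obtain ⟨h, hh, k, hk, rfl⟩ := exists_mul_of_mem_sup (D.Mb_le S) (D.Mb_le S') hx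
  have key : ∀ a ∈ A, a * h = h * a ∧ a * k = k * a := by
    intro a ha
    have h1 : a * h * a⁻¹ ∈ Mb N S := D.conj_Mb_le hS ha (conj_mem_conjOf hh)
    have h2 : a * k * a⁻¹ ∈ Mb N S' := D.conj_Mb_le hS' ha (conj_mem_conjOf hk)
    have e : a * h * a⁻¹ * (a * k * a⁻¹) = h * k := by
      have := Subgroup.mem_centralizer_iff.mp hxA a ha
      calc a * h * a⁻¹ * (a * k * a⁻¹) = a * (h * k) * a⁻¹ := by group
        _ = h * k := by rw [this, mul_inv_cancel_right]
    have h3 : h⁻¹ * (a * h * a⁻¹) ∈ Mb N S ⊓ Mb N S' := by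
      refine Subgroup.mem_inf.mpr ⟨mul_mem (inv_mem hh) h1, ?_⟩
      have e2 : h⁻¹ * (a * h * a⁻¹) = k * (a * k * a⁻¹)⁻¹ := by
        calc h⁻¹ * (a * h * a⁻¹) = h⁻¹ * (a * h * a⁻¹ * (a * k * a⁻¹)) * (a * k * a⁻¹)⁻¹ := by group
          _ = k * (a * k * a⁻¹)⁻¹ := by rw [e]; group
      rw [e2]
      exact mul_mem hk (inv_mem h2)
    rw [hbot, Subgroup.mem_bot, inv_mul_eq_one] at h3
    rw [← h3] at e
    exact ⟨mul_inv_eq_iff_eq_mul.mp h3.symm, mul_inv_eq_iff_eq_mul.mp (mul_left_cancel e)⟩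
  exact Subgroup.mul_mem_sup ⟨hh, Subgroup.mem_centralizer_iff.mpr fun a ha => (key a ha).1⟩
    ⟨hk, Subgroup.mem_centralizer_iff.mpr fun a ha => (key a ha).2⟩

end Blocks

end CfsgLib.TwoSubgroup16
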