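import Cfsg.Agent.TwoSubgroup16.Blocks
import Mathlib.GroupTheory.GroupAction.Quotient

/-!
An abelian subgroup `A` of `T` satisfies `|A|·|C_V(A)| ≤ |C_A(V)|·|V|`; in case of equality it lies in the
product of the `T ∩ E i`.
-/

set_option autoImplicit false

open Cfsg
open CfsgLib.ConjFunctor (conjOf conjOf_conjOf conjOf_one card_conjOf conjOf_mono conj_mem_conjOf mem_normalizer_iff_conjOf conjOf_le_iff mem_conjOf)
open CfsgLib.MinParFF (card_sup_mul_inf exists_mul_of_mem_sup normalizes_of_comm)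

namespace CfsgLib.TwoSubgroup16

/-- What equality gives at the block `i` of `S`. -/
def EqAt {X : Type*} [Group X] {r : ℕ} (N : Fin r → Subgroup X) (A : Subgroup X) (S : Finset (Fin r))
    (i : Fin r) : Prop :=
  A ≤ Subgroup.normalizer (N i : Set X) ∧
    Nat.card A * Nat.card ↥(N i ⊓ Subgroup.centralizer (A : Set X)) =
      Nat.card ↥(A ⊓ Subgroup.centralizer (N i : Set X)) * Nat.card (N i) ∧
    ∀ a ∈ A, ∃ a' ∈ A, SameOn (N i) a a' ∧ ∀ j ∈ S, j ≠ i → a' ∈ Subgroup.centralizer (N j : Set X)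

variable {X : Type*} [Group X] [Finite X] {p : ℕ} [Fact p.Prime] {V T : Subgroup X} {r : ℕ}
  {E N : Fin r → Subgroup X} (D : Blocks p V T E N)

include D

/-- One orbit of blocks. -/
theorem Blocks.orbit_bound {A : Subgroup X} (hAT : A ≤ T) (hab : ∀ a ∈ A, ∀ b ∈ A, a * b = b * a)
    {S : Finset (Fin r)} (hS : InvSet N A S) {i : Fin r} (hi : i ∈ S) :
    ∃ O : Finset (Fin r), i ∈ O ∧ O ⊆ S ∧ InvSet N A O ∧ InvSet N A (S \ O) ∧
      Nat.card A * Nat.card ↥(Mb N O ⊓ Subgroup.centralizer (A : Set X)) ≤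
        Nat.card ↥(A ⊓ Subgroup.centralizer (Mb N O : Set X)) * Nat.card (Mb N O) ∧
      (Nat.card A * Nat.card ↥(Mb N O ⊓ Subgroup.centralizer (A : Set X)) =
        Nat.card ↥(A ⊓ Subgroup.centralizer (Mb N O : Set X)) * Nat.card (Mb N O) →
        O = {i} ∧ A ≤ Subgroup.normalizer (N i : Set X)) := by
  classical
  set O := Finset.univ.filter (fun j => ∃ a ∈ A, conjOf a (N i) = N j) with hO
  have hmemO : ∀ {j}, j ∈ O ↔ ∃ a ∈ A, conjOf a (N i) = N j := fun {j} => by simp [hO]
  have hiO : i ∈ O := hmemO.mpr ⟨1, one_mem A, conjOf_one _⟩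
  have hOS : O ⊆ S := by
    intro j hj
    obtain ⟨a, ha, haj⟩ := hmemO.mp hj
    obtain ⟨k, hk, hak⟩ := hS a ha i hi
    rwa [D.N_inj (haj.symm.trans hak)]
  have hperm : ∀ a ∈ A, ∀ j, ∃ k, conjOf a (N j) = N k := fun a ha j => by
    obtain ⟨k, -, hk⟩ := D.perm a (hAT ha) j
    exact ⟨k, hk⟩
  have hOinv : InvSet N A O := by
    intro a ha j hj
    obtain ⟨b, hb, hbj⟩ := hmemO.mp hj
    obtain ⟨k, hk⟩ := hperm a ha j
    exact ⟨k, hmemO.mpr ⟨a * b, mul_mem ha hb, by rw [← conjOf_conjOf, hbj, hk]⟩, hk⟩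
  have hRinv : InvSet N A (S \ O) := by
    intro a ha j hj
    rw [Finset.mem_sdiff] at hj
    obtain ⟨k, hk, hak⟩ := hS a ha j hj.1
    refine ⟨k, Finset.mem_sdiff.mpr ⟨hk, fun hkO => hj.2 ?_⟩, hak⟩
    obtain ⟨b, hb, hbk⟩ := hmemO.mp hkO
    exact hmemO.mpr ⟨a⁻¹ * b, mul_mem (inv_mem ha) hb,
      by rw [← conjOf_conjOf, hbk, ← hak, conjOf_conjOf, inv_mul_cancel, conjOf_one]⟩
  refine ⟨O, hiO, hOS, hOinv, hRinv, ?_⟩
  set A' := A ⊓ Subgroup.normalizer (N i : Set X) with hA'
  obtain ⟨hb, -⟩ := (D.hyp i).bound (R := A') (inf_le_left.trans hAT) inf_le_right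
  by_cases hone : O = {i}
  · have hAn : A ≤ Subgroup.normalizer (N i : Set X) := by
      intro a ha
      obtain ⟨k, hk, hak⟩ := hOinv a ha i hiO
      rw [hone, Finset.mem_singleton] at hk
      exact mem_normalizer_iff_conjOf.mpr (hak.trans (congrArg N hk))
    rw [hone, Mb_singleton]
    rw [hA', inf_eq_left.mpr hAn] at hb
    exact ⟨hb, fun _ => ⟨rfl, hAn⟩⟩
  -- a proper orbit loses
  have hcardN : ∀ j ∈ O, Nat.card (N j) = Nat.card (N i) := by
    intro j hj
    obtain ⟨a, -, haj⟩ := hmemO.mp hj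
    rw [← haj, card_conjOf]
  set K := A ⊓ Subgroup.centralizer (Mb N O : Set X) with hK
  set n := Nat.card (N i) with hn
  set m := O.card with hm
  have hK' : A' ⊓ Subgroup.centralizer (N i : Set X) ≤ K := by
    rintro x ⟨⟨hxA, -⟩, hxN⟩
    refine ⟨hxA, le_centralizer_Mb (A := Subgroup.zpowers x) (fun j hj => ?_) (Subgroup.mem_zpowers x)⟩
    rw [Subgroup.zpowers_le, Subgroup.mem_centralizer_iff]
    intro y hy
    obtain ⟨a, ha, haj⟩ := hmemO.mp hj
    rw [← haj] at hy
    have hy' := mem_conjOf.mp hy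
    have h1 := Subgroup.mem_centralizer_iff.mp hxN _ hy'
    calc y * x = a * (a⁻¹ * y * a) * a⁻¹ * x := by group
      _ = a * (a⁻¹ * y * a) * (x * a⁻¹) := by rw [mul_assoc _ a⁻¹ x, hab a⁻¹ (inv_mem ha) x hxA]
      _ = a * (a⁻¹ * y * a * x) * a⁻¹ := by group
      _ = a * (x * (a⁻¹ * y * a)) * a⁻¹ := by rw [h1]
      _ = a * x * a⁻¹ * y := by group
      _ = x * y := by rw [hab a ha x hxA, mul_inv_cancel_right]
  have hA'le : Nat.card A' ≤ Nat.card K * n := by
    have hpos : 1 ≤ Nat.card ↥(N i ⊓ Subgroup.centralizer (A' : Set X)) := Nat.card_pos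
    calc Nat.card A' = Nat.card A' * 1 := (mul_one _).symm
      _ ≤ Nat.card A' * Nat.card ↥(N i ⊓ Subgroup.centralizer (A' : Set X)) := Nat.mul_le_mul_left _ hpos
      _ ≤ _ := hb
      _ ≤ Nat.card K * n := Nat.mul_le_mul_right _ (Subgroup.card_le_of_le hK')
  have hAc : Nat.card A = m * Nat.card A' := by
    letI : MulAction ↥A (Subgroup X) :=
      { smul := fun a H => conjOf (a : X) H
        one_smul := fun H => conjOf_one H
        mul_smul := fun a b H => (conjOf_conjOf (a : X) b H).symm }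
    have hstab : MulAction.stabilizer ↥A (N i) = A'.subgroupOf A := by
      ext a
      rw [MulAction.mem_stabilizer_iff, Subgroup.mem_subgroupOf]
      show conjOf (a : X) (N i) = N i ↔ _
      rw [← mem_normalizer_iff_conjOf]
      exact ⟨fun h => ⟨a.2, h⟩, fun h => h.2⟩
    have horb : (MulAction.orbit ↥A (N i)).ncard = m := by
      rw [hm, ← Set.ncard_coe_finset, ← Set.ncard_image_of_injective _ (fun _ _ => D.N_inj)]
      congr 1
      ext H
      constructor
      · rintro ⟨a, rfl⟩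
        obtain ⟨k, hk, hak⟩ := hOinv a a.2 i hiO
        exact ⟨k, hk, hak.symm⟩
      · rintro ⟨k, hk, rfl⟩
        obtain ⟨a, ha, hak⟩ := hmemO.mp hk
        exact ⟨⟨a, ha⟩, hak⟩
    rw [← MulAction.index_stabilizer, hstab] at horb
    rw [← horb, ← (A'.subgroupOf A).card_mul_index, mul_comm,
      Nat.card_congr (Subgroup.subgroupOfEquivOfLe (inf_le_left : A' ≤ A)).toEquiv]
  have hm3 : 3 ≤ m := by
    obtain ⟨k, hk⟩ := IsPGroup.iff_card.mp (D.isP.to_le hAT)
    have hdvd : m ∣ p ^ k := hk ▸ Dvd.intro _ hAc.symm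
    obtain ⟨l, -, hl⟩ := (Nat.dvd_prime_pow (Fact.out : p.Prime)).mp hdvd
    have h1 : m ≠ 1 := by
      intro h1
      obtain ⟨j, hj⟩ := Finset.card_eq_one.mp h1
      rw [hj, Finset.mem_singleton] at hiO
      exact hone (hiO ▸ hj)
    have hp3 : 3 ≤ p := lt_of_le_of_ne (Fact.out : p.Prime).two_le (Ne.symm D.ne_two)
    have hl0 : l ≠ 0 := fun h0 => h1 (by rw [hl, h0, pow_zero])
    rw [hl]
    exact hp3.trans (Nat.le_self_pow hl0 p)
  have hMc : Nat.card (Mb N O) = n ^ m := by
    rw [D.card_Mb, Finset.prod_congr rfl hcardN, Finset.prod_const]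
  have hfix : Nat.card ↥(Mb N O ⊓ Subgroup.centralizer (A : Set X)) ≤ n := by
    haveI := D.Vel.1
    have hMi : Nat.card (Mb N (O.erase i)) = n ^ (m - 1) := by
      rw [D.card_Mb, Finset.prod_congr rfl fun j hj => hcardN j (Finset.mem_of_mem_erase hj),
        Finset.prod_const, Finset.card_erase_of_mem hiO]
    have hbot : (Mb N O ⊓ Subgroup.centralizer (A : Set X)) ⊓ Mb N (O.erase i) = ⊥ := by
      rw [eq_bot_iff]
      rintro x ⟨⟨-, hxA⟩, hxi⟩
      have hall : ∀ j ∈ O, x ∈ Mb N (O.erase j) := by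
        intro j hj
        obtain ⟨a, ha, haj⟩ := hmemO.mp hj
        have h1 : x ∈ conjOf a (Mb N (O.erase i)) := by
          have h0 := conj_mem_conjOf (g := a) hxi
          rwa [Subgroup.mem_centralizer_iff.mp hxA a ha, mul_inv_cancel_right] at h0
        refine (?_ : conjOf a (Mb N (O.erase i)) ≤ Mb N (O.erase j)) h1
        unfold Mb
        simp only [conjOf, Subgroup.map_iSup]
        refine iSup₂_le fun k hk => ?_
        obtain ⟨l, hl, hkl⟩ := hOinv a ha k (Finset.mem_of_mem_erase hk)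
        refine hkl.le.trans (le_biSup N (show l ∈ O.erase j from Finset.mem_erase.mpr ⟨fun hlj => ?_, hl⟩))
        refine (Finset.ne_of_mem_erase hk) (D.N_inj ?_)
        have := congrArg (conjOf a⁻¹) (hkl.trans ((congrArg N hlj).trans haj.symm))
        simpa [conjOf_conjOf] using this
      have key : ∀ s : Finset (Fin r), s ⊆ O → x ∈ Mb N (O \ s) := by
        intro s
        induction s using Finset.induction_on with
        | empty =>
          intro _
          rw [Finset.sdiff_empty]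
          exact Mb_mono (Finset.erase_subset i O) hxi
        | insert j s hj ih =>
          intro hs
          rw [Finset.insert_subset_iff] at hs
          have h1 := D.Mb_inf _ _ (Subgroup.mem_inf.mpr ⟨ih hs.2, hall j hs.1⟩)
          refine Mb_mono ?_ h1
          intro l hl
          simp only [Finset.mem_inter, Finset.mem_sdiff, Finset.mem_erase] at hl
          simp only [Finset.mem_sdiff, Finset.mem_insert]
          tauto
      have h2 := key O le_rfl
      rw [Finset.sdiff_self] at h2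
      simpa [Mb] using h2
    have h1 := D.card_sup_of_disjoint (inf_le_left.trans (D.Mb_le O)) (D.Mb_le (O.erase i)) hbot
    have h2 : Nat.card ↥(Mb N O ⊓ Subgroup.centralizer (A : Set X)) * n ^ (m - 1) ≤ n * n ^ (m - 1) := by
      rw [← hMi, ← h1, hMi, ← pow_succ', show m - 1 + 1 = m by omega, ← hMc]
      exact Subgroup.card_le_of_le (sup_le inf_le_left (Mb_mono (Finset.erase_subset i O)))
    exact Nat.le_of_mul_le_mul_right h2 (pow_pos Nat.card_pos _)
  have hn9 : 9 ≤ n := D.nine_le i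
  have hlt : m * n ^ 2 < n ^ m := by
    have key : ∀ l, 3 ≤ l → l * n ^ 2 < n ^ l := by
      intro l hl
      induction l, hl using Nat.le_induction with
      | base =>
        calc 3 * n ^ 2 < n * n ^ 2 := Nat.mul_lt_mul_of_pos_right (by omega) (by positivity)
          _ = n ^ 3 := by ring
      | succ l hl ih =>
        have h1 : l + 1 ≤ n * l := by
          have := Nat.mul_le_mul_right l hn9
          omega
        calc (l + 1) * n ^ 2 ≤ n * l * n ^ 2 := Nat.mul_le_mul_right _ h1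
          _ = n * (l * n ^ 2) := by ring
          _ < n * n ^ l := by gcongr
          _ = n ^ (l + 1) := by ring
    exact key m hm3
  have hstrict : Nat.card A * Nat.card ↥(Mb N O ⊓ Subgroup.centralizer (A : Set X)) <
      Nat.card K * Nat.card (Mb N O) := by
    rw [hAc, hMc]
    calc m * Nat.card A' * Nat.card ↥(Mb N O ⊓ Subgroup.centralizer (A : Set X))
        ≤ m * (Nat.card K * n) * n := Nat.mul_le_mul (Nat.mul_le_mul_left _ hA'le) hfix
      _ = Nat.card K * (m * n ^ 2) := by ring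
      _ < Nat.card K * n ^ m := Nat.mul_lt_mul_of_pos_left hlt Nat.card_pos
  exact ⟨hstrict.le, fun he => absurd he hstrict.ne⟩

/-- The bound on a union of orbits. -/
theorem Blocks.split_bound : ∀ (S : Finset (Fin r)) (A : Subgroup X), A ≤ T →
    (∀ a ∈ A, ∀ b ∈ A, a * b = b * a) → InvSet N A S →
    Nat.card A * Nat.card ↥(Mb N S ⊓ Subgroup.centralizer (A : Set X)) ≤
        Nat.card ↥(A ⊓ Subgroup.centralizer (Mb N S : Set X)) * Nat.card (Mb N S) ∧
      (Nat.card A * Nat.card ↥(Mb N S ⊓ Subgroup.centralizer (A : Set X)) =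
        Nat.card ↥(A ⊓ Subgroup.centralizer (Mb N S : Set X)) * Nat.card (Mb N S) →
        ∀ i ∈ S, EqAt N A S i) := by
  classical
  intro S
  induction S using Finset.strongInduction with
  | _ S IH =>
  intro A hAT hab hS
  rcases S.eq_empty_or_nonempty with rfl | ⟨i₀, hi₀⟩
  · refine ⟨?_, fun _ i hi => absurd hi (Finset.notMem_empty i)⟩
    have h1 : Mb N (∅ : Finset (Fin r)) = ⊥ := by simp [Mb]
    have h2 : A ≤ Subgroup.centralizer ((⊥ : Subgroup X) : Set X) := fun a _ =>
      Subgroup.mem_centralizer_iff.mpr fun x hx => by rw [Subgroup.mem_bot.mp hx, one_mul, mul_one]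
    rw [h1, bot_inf_eq, inf_eq_left.mpr h2]
  have step : ∀ i ∈ S, Nat.card A * Nat.card ↥(Mb N S ⊓ Subgroup.centralizer (A : Set X)) ≤
        Nat.card ↥(A ⊓ Subgroup.centralizer (Mb N S : Set X)) * Nat.card (Mb N S) ∧
      (Nat.card A * Nat.card ↥(Mb N S ⊓ Subgroup.centralizer (A : Set X)) =
        Nat.card ↥(A ⊓ Subgroup.centralizer (Mb N S : Set X)) * Nat.card (Mb N S) →
        (A ≤ Subgroup.normalizer (N i : Set X) ∧
          Nat.card A * Nat.card ↥(N i ⊓ Subgroup.centralizer (A : Set X)) =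
            Nat.card ↥(A ⊓ Subgroup.centralizer (N i : Set X)) * Nat.card (N i)) ∧
        ∃ K : Subgroup X, K = A ⊓ Subgroup.centralizer (N i : Set X) ∧
          (∀ k ∈ S.erase i, EqAt N K (S.erase i) k) ∧
          Mb N (S.erase i) ⊓ Subgroup.centralizer (K : Set X) ≤ Subgroup.centralizer (A : Set X)) := by
    intro i hi
    obtain ⟨O, hiO, hOS, hOinv, hRinv, hOle, hOeq⟩ := D.orbit_bound hAT hab hS hi
    set K := A ⊓ Subgroup.centralizer (Mb N O : Set X) with hK
    have hKA : K ≤ A := inf_le_left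
    have hKinv : InvSet N K (S \ O) := fun a ha => hRinv a (hKA ha)
    obtain ⟨hRle, hReq⟩ := IH (S \ O)
      (Finset.sdiff_ssubset hOS ⟨i, hiO⟩) K (hKA.trans hAT)
      (fun a ha b hb => hab a (hKA ha) b (hKA hb)) hKinv
    have hker : K ⊓ Subgroup.centralizer (Mb N (S \ O) : Set X) =
        A ⊓ Subgroup.centralizer (Mb N S : Set X) := by
      refine le_antisymm ?_ (le_inf (le_inf inf_le_left (inf_le_right.trans ?_)) (inf_le_right.trans ?_))
      · refine le_inf (inf_le_left.trans hKA) ?_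
        have hu : Mb N S = Mb N O ⊔ Mb N (S \ O) := by
          rw [← Mb_union, Finset.union_sdiff_of_subset hOS]
        rw [hu]
        refine Subgroup.le_centralizer_iff.mpr (sup_le ?_ ?_)
        · exact Subgroup.le_centralizer_iff.mpr (inf_le_left.trans inf_le_right)
        · exact Subgroup.le_centralizer_iff.mpr inf_le_right
      · exact Subgroup.centralizer_le (Mb_mono hOS)
      · exact Subgroup.centralizer_le (Mb_mono Finset.sdiff_subset)
    have hfixS : Nat.card ↥(Mb N S ⊓ Subgroup.centralizer (A : Set X)) =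
        Nat.card ↥(Mb N O ⊓ Subgroup.centralizer (A : Set X)) *
          Nat.card ↥(Mb N (S \ O) ⊓ Subgroup.centralizer (A : Set X)) := by
      conv_lhs => rw [← Finset.union_sdiff_of_subset hOS]
      exact D.card_fix_union Finset.disjoint_sdiff hOinv hRinv
    have hMS : Nat.card (Mb N S) = Nat.card (Mb N O) * Nat.card (Mb N (S \ O)) := by
      rw [D.card_Mb, D.card_Mb, D.card_Mb, mul_comm, Finset.prod_sdiff hOS]
    have hfixle : Nat.card ↥(Mb N (S \ O) ⊓ Subgroup.centralizer (A : Set X)) ≤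
        Nat.card ↥(Mb N (S \ O) ⊓ Subgroup.centralizer (K : Set X)) :=
      Subgroup.card_le_of_le (inf_le_inf_left _ (Subgroup.centralizer_le hKA))
    rw [hker] at hRle hReq
    set a := Nat.card A
    set fO := Nat.card ↥(Mb N O ⊓ Subgroup.centralizer (A : Set X))
    set fR := Nat.card ↥(Mb N (S \ O) ⊓ Subgroup.centralizer (A : Set X))
    set fK := Nat.card ↥(Mb N (S \ O) ⊓ Subgroup.centralizer (K : Set X))
    set k := Nat.card K
    set c := Nat.card ↥(A ⊓ Subgroup.centralizer (Mb N S : Set X))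
    set mO := Nat.card (Mb N O)
    set mR := Nat.card (Mb N (S \ O))
    have hkpos : 0 < k := Nat.card_pos
    have hle : a * (fO * fR) * k ≤ c * (mO * mR) * k := by
      calc a * (fO * fR) * k = (a * fO) * (k * fR) := by ring
        _ ≤ (k * mO) * (k * fK) := Nat.mul_le_mul hOle (Nat.mul_le_mul_left _ hfixle)
        _ ≤ (k * mO) * (c * mR) := Nat.mul_le_mul_left _ hRle
        _ = c * (mO * mR) * k := by ring
    rw [hfixS, hMS]
    refine ⟨Nat.le_of_mul_le_mul_right hle hkpos, fun he => ?_⟩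
    have hmO : 0 < mO := Nat.card_pos
    have hfR : 0 < fR := Nat.card_pos
    have hfK : 0 < fK := Nat.card_pos
    have h1 : a * fO = k * mO ∧ k * fK = c * mR ∧ fR = fK := by
      have e : (a * fO) * (k * fR) = (k * mO) * (c * mR) := by
        calc (a * fO) * (k * fR) = a * (fO * fR) * k := by ring
          _ = c * (mO * mR) * k := by rw [he]
          _ = _ := by ring
      have x1 : k * fR = c * mR := by
        refine le_antisymm ((Nat.mul_le_mul_left _ hfixle).trans hRle) ?_
        have h3 : (k * mO) * (c * mR) ≤ (k * mO) * (k * fR) := by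
          rw [← e]
          exact Nat.mul_le_mul_right _ hOle
        exact Nat.le_of_mul_le_mul_left h3 (Nat.mul_pos hkpos hmO)
      refine ⟨Nat.eq_of_mul_eq_mul_right (Nat.mul_pos hkpos hfR) (x1 ▸ e), ?_, ?_⟩
      · exact le_antisymm hRle (x1 ▸ Nat.mul_le_mul_left _ hfixle)
      · exact le_antisymm hfixle (Nat.le_of_mul_le_mul_left (x1 ▸ hRle) hkpos)
    obtain ⟨hOi, hAn⟩ := hOeq h1.1
    have hOi' : S \ O = S.erase i := by rw [hOi, Finset.sdiff_singleton_eq_erase]
    refine ⟨⟨hAn, ?_⟩, K, by rw [hK, hOi, Mb_singleton], ?_, ?_⟩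
    · have h2 := h1.1
      simp only [a, fO, k, mO, hK, hOi, Mb_singleton] at h2
      exact h2
    · rw [← hOi']
      exact hReq h1.2.1
    · rw [← hOi']
      have heq : Mb N (S \ O) ⊓ Subgroup.centralizer (A : Set X) =
          Mb N (S \ O) ⊓ Subgroup.centralizer (K : Set X) :=
        Subgroup.eq_of_le_of_card_ge (inf_le_inf_left _ (Subgroup.centralizer_le hKA)) h1.2.2.ge
      rw [← heq]
      exact inf_le_right
  refine ⟨(step i₀ hi₀).1, fun he i hi => ?_⟩
  obtain ⟨⟨hAn, hloc⟩, -⟩ := (step i hi).2 he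
  refine ⟨hAn, hloc, fun a ha => ?_⟩
  by_cases hother : ∃ j ∈ S, j ≠ i
  swap
  · push Not at hother
    exact ⟨a, ha, fun x _ => rfl, fun j hj hji => absurd (hother j hj) hji⟩
  obtain ⟨j, hj, hji⟩ := hother
  obtain ⟨-, K, hKdef, hKeq, hKfix⟩ := (step j hj).2 he
  have hiR : i ∈ S.erase j := Finset.mem_erase.mpr ⟨fun h => hji h.symm, hi⟩
  obtain ⟨-, hKloc, hKval⟩ := hKeq i hiR
  have hKA : K ≤ A := hKdef ▸ inf_le_left
  have hfix : N i ⊓ Subgroup.centralizer (A : Set X) = N i ⊓ Subgroup.centralizer (K : Set X) :=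
    le_antisymm (inf_le_inf_left _ (Subgroup.centralizer_le hKA))
      (le_inf inf_le_left ((inf_le_inf_right _ (le_Mb hiR)).trans hKfix))
  set Ai := A ⊓ Subgroup.centralizer (N i : Set X) with hAi
  have hKAi : K ⊓ Ai = K ⊓ Subgroup.centralizer (N i : Set X) := by
    rw [hAi, ← inf_assoc, inf_eq_left.mpr hKA]
  have hnorm : Ai ≤ Subgroup.normalizer (K : Set X) := fun x hx0 => by
    have hx : x ∈ A ∧ x ∈ Subgroup.centralizer (N i : Set X) := Subgroup.mem_inf.mp hx0
    rw [Subgroup.mem_normalizer_iff]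
    intro y
    constructor
    · intro hy
      rwa [hab x hx.1 y (hKA hy), mul_inv_cancel_right]
    · intro hy
      have h1 : x * y * x⁻¹ ∈ A := hKA hy
      have h2 : y ∈ A := by
        have := mul_mem (mul_mem (inv_mem hx.1) h1) hx.1
        simpa [mul_assoc] using this
      rwa [hab x hx.1 y h2, mul_inv_cancel_right] at hy
  have hsup : K ⊔ Ai = A := by
    refine Subgroup.eq_of_le_of_card_ge (sup_le hKA inf_le_left) ?_
    have h1 := card_sup_mul_inf hnorm
    rw [hKAi] at h1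
    have hpos1 : 0 < Nat.card ↥(K ⊓ Subgroup.centralizer (N i : Set X)) := Nat.card_pos
    have hpos2 : 0 < Nat.card ↥(N i ⊓ Subgroup.centralizer (K : Set X)) := Nat.card_pos
    rw [hfix] at hloc
    refine Nat.le_of_mul_le_mul_right (le_of_eq ?_) (Nat.mul_pos hpos1 hpos2)
    calc Nat.card A * (Nat.card ↥(K ⊓ Subgroup.centralizer (N i : Set X)) *
          Nat.card ↥(N i ⊓ Subgroup.centralizer (K : Set X)))
        = Nat.card ↥(K ⊓ Subgroup.centralizer (N i : Set X)) *
          (Nat.card A * Nat.card ↥(N i ⊓ Subgroup.centralizer (K : Set X))) := by ring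
      _ = Nat.card ↥(K ⊓ Subgroup.centralizer (N i : Set X)) * (Nat.card Ai * Nat.card (N i)) := by rw [hloc]
      _ = Nat.card Ai * (Nat.card ↥(K ⊓ Subgroup.centralizer (N i : Set X)) * Nat.card (N i)) := by ring
      _ = Nat.card Ai * (Nat.card K * Nat.card ↥(N i ⊓ Subgroup.centralizer (K : Set X))) := by rw [hKloc]
      _ = (Nat.card K * Nat.card Ai) * Nat.card ↥(N i ⊓ Subgroup.centralizer (K : Set X)) := by ring
      _ = _ := by rw [← h1]; ring
  have ha' : a ∈ ((K ⊔ Ai : Subgroup X) : Set X) := by rw [hsup]; exact ha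
  rw [Subgroup.coe_mul_of_right_le_normalizer_left K Ai hnorm] at ha'
  obtain ⟨k, hk, c, hc, rfl⟩ := ha'
  obtain ⟨a', ha', hsame, hcent⟩ := hKval k hk
  refine ⟨a', hKA ha', fun x hx => ?_, fun l hl hli => ?_⟩
  · rw [← hsame x hx]
    calc k * c * x * (k * c)⁻¹ = k * (c * x * c⁻¹) * k⁻¹ := by group
      _ = k * x * k⁻¹ := by rw [← Subgroup.mem_centralizer_iff.mp hc.2 x hx, mul_inv_cancel_right]
  · by_cases hlj : l = j
    · rw [hlj]
      have h := hKdef ▸ ha'
      exact h.2
    · exact hcent l (Finset.mem_erase.mpr ⟨hlj, hl⟩) hli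

end CfsgLib.TwoSubgroup16
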