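import Cfsg.Agent.TwoSubgroup16.Bound

/-!
The product of the `T ∩ E i`: abelian offenders in `T` lie in it and generate it.
-/

set_option autoImplicit false

open Cfsg
open CfsgLib.ConjFunctor (conjOf conjOf_conjOf conjOf_one card_conjOf conjOf_mono conj_mem_conjOf mem_normalizer_iff_conjOf conjOf_le_iff mem_conjOf)
open CfsgLib.MinParFF (card_sup_mul_inf exists_mul_of_mem_sup normalizes_of_comm)

namespace CfsgLib.TwoSubgroup16

namespace Blocks

variable {X : Type*} [Group X] [Finite X] {p : ℕ} [Fact p.Prime] {V T : Subgroup X} {r : ℕ}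
  {E N : Fin r → Subgroup X} (D : Blocks p V T E N)

include D

omit [Finite X] [Fact p.Prime] in
theorem UU_le_T : UU T E ≤ T := iSup_le fun _ => inf_le_left

omit [Finite X] [Fact p.Prime] in
theorem T_inf_C_le_UU : T ⊓ Subgroup.centralizer (V : Set X) ≤ UU T E :=
  (inf_le_inf_left T (D.C_le ⟨0, D.pos⟩)).trans (le_iSup (fun i => T ⊓ E i) _)

omit [Finite X] [Fact p.Prime] in
theorem iSup_E_le_normalizer (i : Fin r) : (⨆ j, E j) ≤ Subgroup.normalizer (N i : Set X) :=
  iSup_le fun j => by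
    by_cases h : j = i
    · exact h ▸ D.E_norm i
    · exact (D.cross i j (Ne.symm h)).trans (Subgroup.centralizer_le_normalizer _)

/-- An element of `T` inducing an element of `T ∩ E i` on each block lies in their product. -/
theorem mem_UU_of_inner {b : X} (hb : b ∈ T) (h : ∀ i, ∃ u ∈ T ⊓ E i, SameOn (N i) b u) : b ∈ UU T E := by
  classical
  have key : ∀ S : Finset (Fin r), ∃ e ∈ UU T E, (∀ i ∈ S, SameOn (N i) b e) ∧
      ∀ j ∉ S, e ∈ Subgroup.centralizer (N j : Set X) := by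
    intro S
    induction S using Finset.induction_on with
    | empty => exact ⟨1, one_mem _, fun i hi => absurd hi (Finset.notMem_empty i), fun j _ => one_mem _⟩
    | insert i S hi ih =>
      obtain ⟨e, he, hes, hec⟩ := ih
      obtain ⟨u, hu, hus⟩ := h i
      refine ⟨e * u, mul_mem he (le_iSup (fun i => T ⊓ E i) i hu), fun j hj x hx => ?_, fun j hj => ?_⟩
      · rcases Finset.mem_insert.mp hj with rfl | hjS
        · rw [hus x hx]
          have h1 : u * x * u⁻¹ ∈ N j := (Subgroup.mem_normalizer_iff.mp (D.E_norm j hu.2) x).mp hx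
          calc u * x * u⁻¹ = (u * x * u⁻¹) * e * e⁻¹ := by group
            _ = e * (u * x * u⁻¹) * e⁻¹ := by rw [Subgroup.mem_centralizer_iff.mp (hec j hi) _ h1]
            _ = e * u * x * (e * u)⁻¹ := by group
        · rw [hes j hjS x hx]
          have hcx := Subgroup.mem_centralizer_iff.mp (D.cross j i (fun e0 => hi (e0 ▸ hjS)) hu.2) x hx
          calc e * x * e⁻¹ = e * (x * u * u⁻¹) * e⁻¹ := by group
            _ = e * (u * x * u⁻¹) * e⁻¹ := by rw [hcx]
            _ = _ := by group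
      · rw [Finset.mem_insert, not_or] at hj
        exact mul_mem (hec j hj.2) (D.cross j i hj.1 hu.2)
  obtain ⟨e, he, hes, -⟩ := key Finset.univ
  have heT : e ∈ T := D.UU_le_T he
  have h1 : e⁻¹ * b ∈ T ⊓ Subgroup.centralizer (V : Set X) := by
    refine Subgroup.mem_inf.mpr ⟨mul_mem (inv_mem heT) hb, D.faith _ (mul_mem (inv_mem heT) hb) fun i =>
      Subgroup.mem_centralizer_iff.mpr fun x hx => ?_⟩
    have h2 := hes i (Finset.mem_univ i) x hx
    have h3 : e⁻¹ * b * x * (e⁻¹ * b)⁻¹ = x := by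
      calc e⁻¹ * b * x * (e⁻¹ * b)⁻¹ = e⁻¹ * (b * x * b⁻¹) * e := by group
        _ = e⁻¹ * (e * x * e⁻¹) * e := by rw [h2]
        _ = x := by group
    exact (mul_inv_eq_iff_eq_mul.mp h3).symm
  simpa using mul_mem he (D.T_inf_C_le_UU h1)

/-- `T ∩ ⟨E i⟩` is the product of the `T ∩ E i`. -/
theorem inf_iSup_E : T ⊓ (⨆ i, E i) = UU T E := by
  refine le_antisymm ?_ (iSup_le fun i => inf_le_inf_left _ (le_iSup E i))
  rintro b ⟨hb, hbE⟩
  refine D.mem_UU_of_inner hb fun i => ?_
  have hbN : b ∈ Subgroup.normalizer (N i : Set X) := D.iSup_E_le_normalizer i hbE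
  let W : Subgroup X :=
    { carrier := {g | g ∈ Subgroup.normalizer (N i : Set X) ∧ ∃ e ∈ E i, SameOn (N i) g e}
      one_mem' := ⟨one_mem _, 1, one_mem _, fun x _ => rfl⟩
      mul_mem' := by
        rintro g g' ⟨hg, e, he, hge⟩ ⟨hg', e', he', hge'⟩
        refine ⟨mul_mem hg hg', e * e', mul_mem he he', fun x hx => ?_⟩
        have h1 : e' * x * e'⁻¹ ∈ N i := (Subgroup.mem_normalizer_iff.mp (D.E_norm i he') x).mp hx
        calc g * g' * x * (g * g')⁻¹ = g * (g' * x * g'⁻¹) * g⁻¹ := by group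
          _ = g * (e' * x * e'⁻¹) * g⁻¹ := by rw [hge' x hx]
          _ = e * (e' * x * e'⁻¹) * e⁻¹ := hge _ h1
          _ = _ := by group
      inv_mem' := by
        rintro g ⟨hg, e, he, hge⟩
        refine ⟨inv_mem hg, e⁻¹, inv_mem he, fun x hx => ?_⟩
        have h1 : e⁻¹ * x * e⁻¹⁻¹ ∈ N i :=
          (Subgroup.mem_normalizer_iff.mp (D.E_norm i (inv_mem he)) x).mp hx
        have h2 := hge _ h1
        calc g⁻¹ * x * g⁻¹⁻¹ = g⁻¹ * (e * (e⁻¹ * x * e⁻¹⁻¹) * e⁻¹) * g := by group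
          _ = g⁻¹ * (g * (e⁻¹ * x * e⁻¹⁻¹) * g⁻¹) * g := by rw [h2]
          _ = _ := by group }
  have hle : (⨆ j, E j) ≤ W := by
    refine iSup_le fun j g hg => ⟨D.iSup_E_le_normalizer i (le_iSup E j hg), ?_⟩
    by_cases h : j = i
    · subst h
      exact ⟨g, hg, fun x _ => rfl⟩
    · refine ⟨1, one_mem _, fun x hx => ?_⟩
      rw [← Subgroup.mem_centralizer_iff.mp (D.cross i j (Ne.symm h) hg) x hx]
      group
  obtain ⟨-, e, he, hbe⟩ := hle hbE
  exact (D.hyp i).inner_of_sameOn hb hbN he hbe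

/-- An element of `T` centralizing the fixed lines lies in the product of the `T ∩ E i`. -/
theorem mem_UU_of_fixes {b : X} (hb : b ∈ T)
    (hfix : ∀ i, ∀ x ∈ N i, (∀ u ∈ T ⊓ E i, u * x = x * u) → b * x = x * b) : b ∈ UU T E := by
  refine D.mem_UU_of_inner hb fun i => (D.hyp i).inner_of_fixes hb ?_ (hfix i)
  obtain ⟨j, -, hj⟩ := D.perm b hb i
  rw [mem_normalizer_iff_conjOf, hj]
  by_cases hji : j = i
  · rw [hji]
  exfalso
  refine (D.hyp i).fixed_ne_bot (eq_bot_iff.mpr ?_)
  rintro x ⟨hxN, hxU⟩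
  have h1 : x ∈ conjOf b (N i) := by
    have h2 := conj_mem_conjOf (g := b) hxN
    rwa [hfix i x hxN fun u hu => Subgroup.mem_centralizer_iff.mp hxU u hu, mul_inv_cancel_right] at h2
  rw [hj] at h1
  have h3 : x ∈ N i ⊓ Mb N {j} := ⟨hxN, by rw [Mb_singleton]; exact h1⟩
  rwa [D.inf_Mb (by simpa using Ne.symm hji)] at h3

/-- The main consequence for an abelian offender in `T`. -/
theorem offender_structure {A : Subgroup X} (hAT : A ≤ T) (hab : ∀ a ∈ A, ∀ b ∈ A, a * b = b * a)
    (hoff : Nat.card V * Nat.card ↥(A ⊓ Subgroup.centralizer (V : Set X)) ≤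
      Nat.card A * Nat.card ↥(V ⊓ Subgroup.centralizer (A : Set X))) :
    Nat.card V * Nat.card ↥(A ⊓ Subgroup.centralizer (V : Set X)) =
        Nat.card A * Nat.card ↥(V ⊓ Subgroup.centralizer (A : Set X)) ∧
      A ≤ UU T E ∧
      ∀ i, A ≤ Subgroup.centralizer (N i : Set X) ∨ T ⊓ E i ≤ A ⊔ (T ⊓ Subgroup.centralizer (V : Set X)) := by
  classical
  haveI := D.Vel.1
  set C₀ := V ⊓ Subgroup.centralizer ((⨆ i, E i : Subgroup X) : Set X) with hC₀
  have hinv : InvSet N A Finset.univ := fun a ha i _ => by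
    obtain ⟨j, -, hj⟩ := D.perm a (hAT ha) i
    exact ⟨j, Finset.mem_univ j, hj⟩
  obtain ⟨hle, heq⟩ := D.split_bound Finset.univ A hAT hab hinv
  set M := Mb N (Finset.univ : Finset (Fin r)) with hM
  have hMeq : M = ⨆ i, N i := by simp [hM, Mb]
  have hgen : C₀ ⊔ M = V := by rw [hMeq]; exact D.gen
  have hdisj : C₀ ⊓ M = ⊥ := by
    rw [eq_bot_iff]
    rintro x ⟨hx0, hxM⟩
    have key : ∀ s : Finset (Fin r), x ∈ Mb N (Finset.univ \ s) := by
      intro s
      induction s using Finset.induction_on with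
      | empty => rw [Finset.sdiff_empty]; exact hxM
      | insert j s hj ih =>
        have hsplit : Finset.univ \ s = insert j (Finset.univ \ insert j s) := by
          ext l
          simp only [Finset.mem_sdiff, Finset.mem_univ, true_and, Finset.mem_insert]
          by_cases hlj : l = j
          · simp [hlj, hj]
          · simp [hlj]
        rw [hsplit, Mb_insert] at ih
        obtain ⟨n, hn, y, hy, rfl⟩ := exists_mul_of_mem_sup (D.N_le j) (D.Mb_le _) ih
        have hn' : n ∈ N j ⊓ (C₀ ⊔ ⨆ l ∈ {l | l ≠ j}, N l) := by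
          refine ⟨hn, ?_⟩
          have hy' : y ∈ C₀ ⊔ ⨆ l ∈ {l | l ≠ j}, N l := by
            refine (le_trans ?_ le_sup_right : Mb N (Finset.univ \ insert j s) ≤ _) hy
            exact iSup₂_le fun l hl => le_biSup N (show l ∈ {l | l ≠ j} from fun e => by simp [e] at hl)
          simpa using mul_mem (Subgroup.mem_sup_left (T := ⨆ l ∈ {l | l ≠ j}, N l) hx0) (inv_mem hy')
        rw [D.indep j, Subgroup.mem_bot] at hn'
        rw [hn', one_mul]
        exact hy
    have := key Finset.univ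
    rw [Finset.sdiff_self] at this
    simpa [Mb] using this
  have hEn : ∀ a ∈ A, ∀ x ∈ C₀, a * x * a⁻¹ ∈ C₀ := by
    rintro a ha x ⟨hxV, hxE⟩
    refine ⟨D.Vn.conj_mem x hxV a, ?_⟩
    show a * x * a⁻¹ ∈ Subgroup.centralizer ((⨆ i, E i : Subgroup X) : Set X)
    refine Subgroup.mem_centralizer_iff.mpr fun e he => ?_
    have h0 : ∀ g ∈ (⨆ i, E i : Subgroup X), a⁻¹ * g * a ∈ (⨆ i, E i : Subgroup X) := by
      intro g hg
      have h1 : conjOf a⁻¹ (⨆ i, E i) ≤ ⨆ i, E i := by
        simp only [conjOf, Subgroup.map_iSup]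
        refine iSup_le fun i => ?_
        obtain ⟨j, hj, -⟩ := D.perm a⁻¹ (inv_mem (hAT ha)) i
        exact hj.le.trans (le_iSup E j)
      simpa using h1 (conj_mem_conjOf hg)
    have h2 := Subgroup.mem_centralizer_iff.mp hxE _ (h0 e he)
    calc e * (a * x * a⁻¹) = a * (a⁻¹ * e * a * x) * a⁻¹ := by group
      _ = a * (x * (a⁻¹ * e * a)) * a⁻¹ := by rw [h2]
      _ = _ := by group
  have hfix : V ⊓ Subgroup.centralizer (A : Set X) =
      (C₀ ⊓ Subgroup.centralizer (A : Set X)) ⊔ (M ⊓ Subgroup.centralizer (A : Set X)) := by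
    refine le_antisymm ?_ (sup_le (inf_le_inf_right _ inf_le_left) (inf_le_inf_right _ (D.Mb_le _)))
    rintro x ⟨hxV, hxA⟩
    rw [SetLike.mem_coe, ← hgen] at hxV
    obtain ⟨c, hc, m, hm, rfl⟩ := exists_mul_of_mem_sup (V := V) inf_le_left (D.Mb_le _) hxV
    have key : ∀ a ∈ A, a * c = c * a ∧ a * m = m * a := by
      intro a ha
      have h1 := hEn a ha c hc
      have h2 : a * m * a⁻¹ ∈ M := D.conj_Mb_le hinv ha (conj_mem_conjOf hm)
      have e : a * c * a⁻¹ * (a * m * a⁻¹) = c * m := by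
        calc a * c * a⁻¹ * (a * m * a⁻¹) = a * (c * m) * a⁻¹ := by group
          _ = c * m := by rw [Subgroup.mem_centralizer_iff.mp hxA a ha, mul_inv_cancel_right]
      have h3 : c⁻¹ * (a * c * a⁻¹) ∈ C₀ ⊓ M := by
        refine Subgroup.mem_inf.mpr ⟨mul_mem (inv_mem hc) h1, ?_⟩
        have e2 : c⁻¹ * (a * c * a⁻¹) = m * (a * m * a⁻¹)⁻¹ := by
          calc c⁻¹ * (a * c * a⁻¹) = c⁻¹ * (a * c * a⁻¹ * (a * m * a⁻¹)) * (a * m * a⁻¹)⁻¹ := by group
            _ = m * (a * m * a⁻¹)⁻¹ := by rw [e]; group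
        rw [e2]
        exact mul_mem hm (inv_mem h2)
      rw [hdisj, Subgroup.mem_bot, inv_mul_eq_one] at h3
      rw [← h3] at e
      exact ⟨mul_inv_eq_iff_eq_mul.mp h3.symm, mul_inv_eq_iff_eq_mul.mp (mul_left_cancel e)⟩
    exact Subgroup.mul_mem_sup ⟨hc, Subgroup.mem_centralizer_iff.mpr fun a ha => (key a ha).1⟩
      ⟨hm, Subgroup.mem_centralizer_iff.mpr fun a ha => (key a ha).2⟩
  have hker : A ⊓ Subgroup.centralizer (M : Set X) = A ⊓ Subgroup.centralizer (V : Set X) := by
    refine le_antisymm ?_ (inf_le_inf_left _ (Subgroup.centralizer_le (D.Mb_le _)))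
    rintro a ⟨ha, haM⟩
    exact ⟨ha, D.faith a (hAT ha) fun i => Subgroup.centralizer_le (le_Mb (Finset.mem_univ i)) haM⟩
  have hVc : Nat.card V = Nat.card C₀ * Nat.card M := by
    rw [← hgen, D.card_sup_of_disjoint inf_le_left (D.Mb_le _) hdisj]
  have hfc : Nat.card ↥(V ⊓ Subgroup.centralizer (A : Set X)) =
      Nat.card ↥(C₀ ⊓ Subgroup.centralizer (A : Set X)) * Nat.card ↥(M ⊓ Subgroup.centralizer (A : Set X)) := by
    rw [hfix, D.card_sup_of_disjoint (inf_le_left.trans inf_le_left) (inf_le_left.trans (D.Mb_le _))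
      (le_bot_iff.mp ((inf_le_inf inf_le_left inf_le_left).trans hdisj.le))]
  rw [hker] at hle heq
  rw [hVc, hfc] at hoff ⊢
  set k := Nat.card ↥(A ⊓ Subgroup.centralizer (V : Set X))
  set a := Nat.card A
  set f₀ := Nat.card ↥(C₀ ⊓ Subgroup.centralizer (A : Set X))
  set f := Nat.card ↥(M ⊓ Subgroup.centralizer (A : Set X))
  have hf₀ : f₀ ≤ Nat.card C₀ := Subgroup.card_le_of_le inf_le_left
  have heq' : a * f = k * Nat.card M := by
    refine le_antisymm hle ?_
    have h1 : Nat.card C₀ * (k * Nat.card M) ≤ Nat.card C₀ * (a * f) := by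
      calc Nat.card C₀ * (k * Nat.card M) = Nat.card C₀ * Nat.card M * k := by ring
        _ ≤ a * (f₀ * f) := hoff
        _ = f₀ * (a * f) := by ring
        _ ≤ _ := Nat.mul_le_mul_right _ hf₀
    exact Nat.le_of_mul_le_mul_left h1 Nat.card_pos
  have hf₀eq : f₀ = Nat.card C₀ := by
    refine le_antisymm hf₀ (Nat.le_of_mul_le_mul_right ?_ (Nat.mul_pos (Nat.card_pos : 0 < k) (Nat.card_pos : 0 < Nat.card M)))
    calc Nat.card C₀ * (k * Nat.card M) = Nat.card C₀ * Nat.card M * k := by ring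
      _ ≤ a * (f₀ * f) := hoff
      _ = f₀ * (k * Nat.card M) := by rw [← heq']; ring
  refine ⟨?_, ?_, fun i => ?_⟩
  · calc Nat.card C₀ * Nat.card M * k = Nat.card C₀ * (k * Nat.card M) := by ring
      _ = f₀ * (a * f) := by rw [heq', hf₀eq]
      _ = _ := by ring
  · intro b hb
    refine D.mem_UU_of_inner (hAT hb) fun i => ?_
    obtain ⟨hn, hloc, -⟩ := heq heq' i (Finset.mem_univ i)
    exact (((D.hyp i).bound hAT hn).2 hloc).1 b hb
  · obtain ⟨hn, hloc, hval⟩ := heq heq' i (Finset.mem_univ i)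
    rcases (((D.hyp i).bound hAT hn).2 hloc).2 with h | h
    · exact Or.inl h
    refine Or.inr fun u hu => ?_
    obtain ⟨b, hb, hbu⟩ := h u hu
    obtain ⟨b', hb', hbb', hb'c⟩ := hval b hb
    have h1 : b'⁻¹ * u ∈ T ⊓ Subgroup.centralizer (V : Set X) := by
      have hT' : b'⁻¹ * u ∈ T := mul_mem (inv_mem (hAT hb')) hu.1
      refine Subgroup.mem_inf.mpr ⟨hT', D.faith _ hT' fun j => ?_⟩
      by_cases hji : j = i
      · subst hji
        refine Subgroup.mem_centralizer_iff.mpr fun x hx => ?_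
        have h3 : b'⁻¹ * u * x * (b'⁻¹ * u)⁻¹ = x := by
          calc b'⁻¹ * u * x * (b'⁻¹ * u)⁻¹ = b'⁻¹ * (u * x * u⁻¹) * b' := by group
            _ = b'⁻¹ * (b' * x * b'⁻¹) * b' := by rw [← hbu x hx, hbb' x hx]
            _ = x := by group
        exact (mul_inv_eq_iff_eq_mul.mp h3).symm
      · exact mul_mem (inv_mem (hb'c j (Finset.mem_univ j) hji)) (D.cross j i hji hu.2)
    have h4 := mul_mem (Subgroup.mem_sup_left (T := T ⊓ Subgroup.centralizer (V : Set X)) hb')
      (Subgroup.mem_sup_right (S := A) h1)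
    simpa using h4

/-- A subgroup covering every block has no fixed vector in their sum. -/
theorem no_fixed {H : Subgroup X}
    (hH : ∀ i, ∀ e ∈ E i, ∃ k ∈ H, SameOn (N i) k e ∧ ∀ j, j ≠ i → k ∈ Subgroup.centralizer (N j : Set X)) :
    (⨆ i, N i) ⊓ Subgroup.centralizer (H : Set X) = ⊥ := by
  classical
  haveI := D.Vel.1
  rw [eq_bot_iff]
  rintro x ⟨hxM, hxH⟩
  have key : ∀ s : Finset (Fin r), x ∈ Mb N (Finset.univ \ s) := by
    intro s
    induction s using Finset.induction_on with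
    | empty =>
      rw [Finset.sdiff_empty]
      simpa [Mb] using hxM
    | insert j s hj ih =>
      have hsplit : Finset.univ \ s = insert j (Finset.univ \ insert j s) := by
        ext l
        simp only [Finset.mem_sdiff, Finset.mem_univ, true_and, Finset.mem_insert]
        by_cases hlj : l = j
        · simp [hlj, hj]
        · simp [hlj]
      rw [hsplit, Mb_insert] at ih
      obtain ⟨n, hn, y, hy, rfl⟩ := exists_mul_of_mem_sup (D.N_le j) (D.Mb_le _) ih
      let Hj : Subgroup X :=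
        H ⊓ Subgroup.centralizer (Mb N (Finset.univ \ insert j s) : Set X)
      have hfix : n ∈ N j ⊓ Subgroup.centralizer (Hj : Set X) := by
        refine ⟨hn, Subgroup.mem_centralizer_iff.mpr fun k hk => ?_⟩
        have h1 := Subgroup.mem_centralizer_iff.mp hxH k hk.1
        have h2 := Subgroup.mem_centralizer_iff.mp hk.2 y hy
        have h3 : k * n * y = n * k * y := by rw [mul_assoc, h1, mul_assoc, h2, ← mul_assoc]
        exact mul_right_cancel h3
      rw [(D.hyp j).fixed_eq_bot Hj fun e he => ?_, Subgroup.mem_bot] at hfix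
      · rw [hfix, one_mul]; exact hy
      · obtain ⟨k, hk, hke, hkc⟩ := hH j e he
        refine ⟨k, ⟨hk, ?_⟩, hke⟩
        refine le_centralizer_Mb (A := Subgroup.zpowers k) (fun l hl => ?_) (Subgroup.mem_zpowers k)
        rw [Subgroup.zpowers_le]
        exact hkc l fun e => by simp [e] at hl
  have := key Finset.univ
  rw [Finset.sdiff_self] at this
  simpa [Mb] using this

end Blocks

end CfsgLib.TwoSubgroup16
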