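import Cfsg.Agent.Eq.Def_BaumannBlocks
import Cfsg.Agent.ConjFunctor.Basic

/-!
For odd `p`, a natural `SL₂` acting on `[V, E]` modulo fixed points has no fixed points in `[V, E]`.
-/

set_option autoImplicit false

open Cfsg
open scoped commutatorElement

namespace CfsgLib.TwoSubgroup16

variable {G : Type*} [Group G]

theorem commutator_inf_centralizer_eq_bot {p : ℕ} [Fact p.Prime] (hp : p ≠ 2) {V E : Subgroup G}
    {F : Type} [Field F] [CharP F p] (hV : IsElementaryAbelian p V) (hEV : E ≤ Subgroup.normalizer (V : Set G))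
    (hiso : Nonempty (↥E ≃* Matrix.SpecialLinearGroup (Fin 2) F)) [Finite G] [Finite F]
    (hsup : V ≤ ⁅V, E⁆ ⊔ (V ⊓ Subgroup.centralizer (E : Set G)))
    (hact : ActsAsSL2OnSection F ⊤ E ⁅V, E⁆ (⁅V, E⁆ ⊓ Subgroup.centralizer (E : Set G))) :
    ⁅V, E⁆ ⊓ Subgroup.centralizer (E : Set G) = ⊥ := by
  classical
  set N := ⁅V, E⁆ with hN
  obtain ⟨hEN, -, ρ, ψ, hρ, hψ, hker, hact⟩ := hact
  haveI := hV.1
  have hab : ∀ a ∈ V, ∀ b ∈ V, a * b = b * a := fun a ha b hb =>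
    congrArg Subtype.val (mul_comm' (⟨a, ha⟩ : ↥V) ⟨b, hb⟩)
  have hNV : N ≤ V := by
    rw [hN, Subgroup.commutator_le]
    intro v hv e he
    have h1 : e * v⁻¹ * e⁻¹ ∈ V := (Subgroup.mem_normalizer_iff.mp (hEV he) _).mp (inv_mem hv)
    rw [show ⁅v, e⁆ = v * (e * v⁻¹ * e⁻¹) by simp [commutatorElement_def, mul_assoc]]
    exact mul_mem hv h1
  obtain ⟨iso⟩ := hiso
  haveI : Finite (Matrix.SpecialLinearGroup (Fin 2) F) := Finite.of_equiv _ iso.toEquiv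
  have hρi : Function.Injective ρ :=
    (Finite.injective_iff_surjective_of_equiv iso.toEquiv).mpr (MonoidHom.range_eq_top.mp hρ)
  obtain ⟨z, hz⟩ := MonoidHom.range_eq_top.mp hρ (-1)
  have hzc : ∀ e : ↥E, z * e = e * z := fun e => hρi (by rw [map_mul, map_mul, hz]; simp)
  have hz2 : z * z = 1 := hρi (by rw [map_mul, hz, map_one]; simp)
  let m : G → G := fun v => (z : G) * v * (z : G)⁻¹ * v⁻¹
  have hzV : ∀ v ∈ V, (z : G) * v * (z : G)⁻¹ ∈ V := fun v hv =>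
    (Subgroup.mem_normalizer_iff.mp (hEV z.2) v).mp hv
  have hmV : ∀ v ∈ V, m v ∈ V := fun v hv => mul_mem (hzV v hv) (inv_mem hv)
  have hmm : ∀ v ∈ V, ∀ w ∈ V, m (v * w) = m v * m w := by
    intro v hv w hw
    calc m (v * w) = (z : G) * v * (z : G)⁻¹ * ((z : G) * w * (z : G)⁻¹ * w⁻¹) * v⁻¹ := by simp [m, mul_assoc]
      _ = (z : G) * v * (z : G)⁻¹ * (v⁻¹ * ((z : G) * w * (z : G)⁻¹ * w⁻¹)) := by
          rw [mul_assoc _ _ v⁻¹, hab _ (hmV w hw) _ (inv_mem hv)]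
      _ = _ := by simp [m, mul_assoc]
  let I : Subgroup G :=
    { carrier := {y | ∃ v ∈ V, m v = y}
      one_mem' := ⟨1, one_mem _, by simp [m]⟩
      mul_mem' := by
        rintro _ _ ⟨v, hv, rfl⟩ ⟨w, hw, rfl⟩
        exact ⟨v * w, mul_mem hv hw, hmm v hv w hw⟩
      inv_mem' := by
        rintro _ ⟨v, hv, rfl⟩
        refine ⟨v⁻¹, inv_mem hv, eq_inv_of_mul_eq_one_left ?_⟩
        rw [← hmm _ (inv_mem hv) v hv, inv_mul_cancel]
        simp [m] }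
  have hme : ∀ (e : ↥E) (v : G), m ((e : G) * v * (e : G)⁻¹) = (e : G) * m v * (e : G)⁻¹ := by
    intro e v
    have h1 : (z : G) * (e : G) = (e : G) * z := congrArg Subtype.val (hzc e)
    calc m ((e : G) * v * (e : G)⁻¹)
        = ((z : G) * e) * v * ((z : G) * e)⁻¹ * ((e : G) * v⁻¹ * (e : G)⁻¹) := by simp [m, mul_assoc]
      _ = ((e : G) * z) * v * ((e : G) * z)⁻¹ * ((e : G) * v⁻¹ * (e : G)⁻¹) := by rw [h1]
      _ = _ := by simp [m, mul_assoc]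
  have h2 : (2 : F) ≠ 0 := by
    intro h
    have h1 : ((2 : ℕ) : F) = 0 := by exact_mod_cast h
    exact hp ((Nat.prime_dvd_prime_iff_eq (Fact.out) Nat.prime_two).1 ((CharP.cast_eq_zero_iff F p 2).1 h1))
  -- every element of `N` is in `I` modulo fixed points
  have hcover : ∀ n ∈ N, ∃ i ∈ I, i⁻¹ * n ∈ Subgroup.centralizer (E : Set G) := by
    intro n hn
    obtain ⟨n₁, hn₁⟩ := hψ (Multiplicative.ofAdd (((-2 : F))⁻¹ • (ψ ⟨n, hn⟩).toAdd))
    obtain ⟨w, hw, hwψ⟩ := hact z n₁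
    have hwm : m n₁ ∈ N := by
      show (z : G) * n₁ * (z : G)⁻¹ * (n₁ : G)⁻¹ ∈ N
      rw [← hw]; exact mul_mem w.2 (inv_mem n₁.2)
    refine ⟨m n₁, ⟨n₁, hNV n₁.2, rfl⟩, ?_⟩
    have hψm : ψ (⟨m n₁, hwm⟩⁻¹ * ⟨n, hn⟩) = 1 := by
      have e : (⟨m n₁, hwm⟩ : ↥N) = w * n₁⁻¹ := Subtype.ext (by simp [m, hw])
      apply toAdd_eq_zero.mp
      simp only [e, map_mul, map_inv, toAdd_mul, toAdd_inv]
      rw [hwψ, hz, hn₁]
      rw [toAdd_ofAdd]
      simp only [Matrix.SpecialLinearGroup.coe_neg, Matrix.SpecialLinearGroup.coe_one, Matrix.neg_mulVec,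
        Matrix.one_mulVec]
      rw [show -(-((-2 : F)⁻¹ • (ψ ⟨n, hn⟩).toAdd) + -((-2 : F)⁻¹ • (ψ ⟨n, hn⟩).toAdd)) + (ψ ⟨n, hn⟩).toAdd =
        ((-2 : F)⁻¹ * 2 + 1) • (ψ ⟨n, hn⟩).toAdd by module]
      rw [show (-2 : F)⁻¹ * 2 + 1 = 0 by rw [inv_neg, neg_mul, inv_mul_cancel₀ h2, neg_add_cancel], zero_smul]
    exact ((hker _).mp hψm).2
  have hNI : N ≤ I := by
    rw [hN, Subgroup.commutator_le]
    intro v hv e he
    have hv' : v ∈ ((N ⊔ (V ⊓ Subgroup.centralizer (E : Set G)) : Subgroup G) : Set G) := hsup hv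
    rw [Subgroup.coe_mul_of_left_le_normalizer_right _ _ (fun x hx => by
      rw [Subgroup.mem_normalizer_iff]
      intro y
      constructor
      · intro hy
        rwa [hab x (hNV hx) y hy.1, mul_inv_cancel_right]
      · intro hy
        have hy' : y ∈ V := by
          have h3 := mul_mem (mul_mem (inv_mem (hNV hx)) hy.1) (hNV hx)
          simpa [mul_assoc] using h3
        rwa [hab x (hNV hx) y hy', mul_inv_cancel_right] at hy)] at hv'
    obtain ⟨n, hn, c, hc, rfl⟩ := hv'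
    obtain ⟨i, ⟨u, hu, rfl⟩, hic⟩ := hcover n hn
    have hkey : ⁅n * c, e⁆ = m u * (m (e * u * e⁻¹))⁻¹ := by
      have h4 := Subgroup.mem_centralizer_iff.mp (mul_mem hic hc.2) e he
      rw [hme ⟨e, he⟩ u]
      calc ⁅n * c, e⁆ = m u * (((m u)⁻¹ * n * c) * e * ((m u)⁻¹ * n * c)⁻¹) * (m u)⁻¹ * e⁻¹ := by
            simp [commutatorElement_def, mul_assoc]
        _ = m u * e * (m u)⁻¹ * e⁻¹ := by rw [← h4, mul_inv_cancel_right]
        _ = _ := by simp [mul_assoc]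
    rw [hkey]
    exact mul_mem ⟨u, hu, rfl⟩ (inv_mem ⟨_, (Subgroup.mem_normalizer_iff.mp (hEV he) u).mp hu, rfl⟩)
  rw [eq_bot_iff]
  rintro x ⟨hxN, hxE⟩
  obtain ⟨v, hv, rfl⟩ := hNI hxN
  have hz2' : (z : G) * z = 1 := congrArg Subtype.val hz2
  have hzinv : (z : G)⁻¹ = z := inv_eq_of_mul_eq_one_left hz2'
  have hflip : (z : G) * m v * (z : G)⁻¹ = (m v)⁻¹ := by
    calc (z : G) * m v * (z : G)⁻¹ = ((z : G) * z) * v * ((z : G)⁻¹ * v⁻¹ * (z : G)⁻¹) := by simp [m, mul_assoc]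
      _ = v * ((z : G) * v⁻¹ * (z : G)⁻¹) := by rw [hz2', one_mul]; simp [hzinv]
      _ = _ := by simp [m, mul_assoc]
  have hfix : (z : G) * m v * (z : G)⁻¹ = m v := by
    rw [Subgroup.mem_centralizer_iff.mp hxE z z.2, mul_inv_cancel_right]
  have hsq : m v ^ 2 = 1 := by
    rw [pow_two]
    nth_rw 1 [← hfix]
    rw [hflip, inv_mul_cancel]
  rw [Subgroup.mem_bot]
  exact orderOf_eq_one_iff.mp (Nat.eq_one_of_dvd_coprimes
    ((Nat.coprime_primes Nat.prime_two (Fact.out : p.Prime)).mpr (Ne.symm hp))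
    (orderOf_dvd_of_pow_eq_one hsq) (orderOf_dvd_of_pow_eq_one (hV.2 _ (hmV v hv))))

end CfsgLib.TwoSubgroup16
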