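import Cfsg.Agent.MinParFF.MinimalParabolic

/-!
The decomposition of a `p`-minimal group with an offender for odd `p`, with the closure of the factors under `T`.
-/

set_option autoImplicit false

open Cfsg CfsgLib.MinParFF

namespace CfsgLib.TwoSubgroup16

theorem odd_decomposition {G : Type*} [Group G] [Finite G] {p : ℕ} [Fact p.Prime] (hp : p ≠ 2)
    (V P : Subgroup G) (hV : IsElementaryAbelian p V) (hPV : P ≤ Subgroup.normalizer (V : Set G))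
    (hfaith : P ⊓ Subgroup.centralizer (V : Set G) = ⊥) (hmin : IsPMinimal p ↥P) (T : Sylow p ↥P)
    (M : Subgroup ↥P) (hM : IsCoatom M) (hTM : (T : Subgroup ↥P) ≤ M) (hOp : pCore p ↥P = ⊥)
    (hoff : ∃ A : Subgroup G, A ≤ P ∧ ¬ A ≤ Subgroup.centralizer (V : Set G) ∧ IsBestOffenderOn p V A)
    (hCT : P ⊓ Subgroup.centralizer ((V ⊓ Subgroup.centralizer
      ((((T : Subgroup ↥P).map P.subtype) : Subgroup G) : Set G)) : Set G) ≤ M.map P.subtype) :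
    ∃ (r : ℕ) (E : Fin r → Subgroup G), 1 ≤ r ∧ (∀ i, E i ≤ P) ∧ (∀ i j, i ≠ j → ⁅E i, E j⁆ = ⊥) ∧
      (⨆ i, E i) ⊔ ((T : Subgroup ↥P).map P.subtype) = P ∧
      (∀ i j, ∃ t ∈ ((T : Subgroup ↥P).map P.subtype), (E i).map (MulAut.conj t).toMonoidHom = E j) ∧
      (∀ t ∈ ((T : Subgroup ↥P).map P.subtype), ∀ i, ∃ j, (E i).map (MulAut.conj t).toMonoidHom = E j) ∧
      (V ⊓ Subgroup.centralizer (((⨆ i, E i) : Subgroup G) : Set G)) ⊔ (⨆ i, ⁅V, E i⁆) = V ∧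
      (∀ i j, i ≠ j → ⁅⁅V, E i⁆, E j⁆ = ⊥) ∧
      ∀ i, ∃ n : ℕ, 1 ≤ n ∧ ∃ (F : Type) (_ : Field F) (_ : Fintype F), Fintype.card F = p ^ n ∧
        Nonempty (↥(E i) ≃* Matrix.SpecialLinearGroup (Fin 2) F) ∧
        ActsAsSL2OnSection F ⊤ (E i) ⁅V, E i⁆ (⁅V, E i⁆ ⊓ Subgroup.centralizer ((E i : Subgroup G) : Set G)) := by
  obtain ⟨hc, hmax⟩ := ctx_of_pMinimal V P hV hPV hfaith hmin T M hM hTM hOp hCT
  obtain ⟨A, hA, hAT⟩ := exists_member hc hoff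
  set T₀ := (T : Subgroup ↥P).map P.subtype
  haveI : Nonempty (Idx p P V T₀) := ⟨⟨A, hA, hAT⟩⟩
  have hq : ∀ i : Idx p P V T₀, Nat.card i.1 = Nat.card A := fun i => by
    obtain ⟨t, -, he⟩ := hc.member_transitive hA hAT i.2.1 i.2.2
    rw [← he, card_conjSub]
  obtain ⟨n, hn⟩ := IsPGroup.iff_card.1 (isPGroup_of_el hA.2.1)
  have hA1 := (Subgroup.one_lt_card_iff_ne_bot A).2 hA.2.2.1
  have hA2 : Nat.card A ≠ 2 := by
    intro h2
    have hn0 : n ≠ 0 := fun h0 => by rw [hn, h0, pow_zero] at hA1; omega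
    have hd : p ∣ 2 := by rw [← h2, hn]; exact dvd_pow_self p hn0
    exact hp ((Nat.prime_dvd_prime_iff_eq (Fact.out) Nat.prime_two).1 hd)
  have hgt : ∀ i : Idx p P V T₀, 2 < Nat.card i.1 := fun i => by rw [hq i]; omega
  obtain ⟨r, σ, hr, h1, -, h4, h5, h6, h7⟩ :=
    product_conclusion hc hmax (fun i : Idx p P V T₀ => LT p P V T₀ i.1)
      (fun i => (hc.member_setup i.2.1 i.2.2).2.2.le)
      (fun i => (hc.member_setup i.2.1 i.2.2).2.2.nle)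
      (fun i => (hc.member_setup i.2.1 i.2.2).2.2.comm_sup)
      (fun i j hij => hc.large_fix i.2.1 i.2.2 j.2.1 j.2.2 (fun e => hij (Subtype.ext e)) (hgt i))
      (fun i j => by
        obtain ⟨t, ht, he⟩ := hc.member_transitive i.2.1 i.2.2 j.2.1 j.2.2
        exact ⟨t, ht, by rw [hc.LT_conj i.2.1 i.2.2 ht, he]⟩)
  refine ⟨r, fun i => LT p P V T₀ (σ i).1, hr, fun i => (hc.member_setup (σ i).2.1 (σ i).2.2).2.2.le,
    h1, h4, h5, fun t ht i => ?_, h6, h7, fun i => ?_⟩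
  · refine ⟨σ.symm ⟨conjSub t (σ i).1, hc.family.conj t (hc.M_le (hc.T_le ht)) _ (σ i).2.1,
      conjSub_le_of_mem ht (σ i).2.2⟩, ?_⟩
    show conjSub t (LT p P V T₀ (σ i).1) = LT p P V T₀ (σ (σ.symm _)).1
    rw [σ.apply_symm_apply, hc.LT_conj (σ i).2.1 (σ i).2.2 ht]
  · obtain ⟨m, hm, -, hF⟩ := (hc.member_setup (σ i).2.1 (σ i).2.2).2.2.model_comm
    exact ⟨m, hm, hF⟩

end CfsgLib.TwoSubgroup16
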