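import Cfsg.Agent.Eq.Def_LocalEven
import Cfsg.Prelude.Def_LocalEven
import Mathlib

/-!
A `p`-element acts quadratically on a natural `SL₂`-module in characteristic `p`.
-/

set_option autoImplicit false

open Cfsg
open scoped commutatorElement

namespace CfsgLib.TwoSubgroup16

theorem mul_self_eq_zero_of_pow {F : Type*} [Field F] (N : Matrix (Fin 2) (Fin 2) F) {k : ℕ} (hk : N ^ k = 0) :
    N * N = 0 := by
  have hdet : N.det = 0 := by
    by_contra h
    have h1 := congrArg Matrix.det hk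
    rw [Matrix.det_pow, Matrix.det_zero] at h1
    exact pow_ne_zero k h h1
  rw [Matrix.det_fin_two] at hdet
  have key : N * N = N.trace • N := by
    ext i j
    fin_cases i <;> fin_cases j <;>
      simp [Matrix.mul_apply, Fin.sum_univ_two, Matrix.trace_fin_two] <;>
      first | ring1 | linear_combination -hdet
  by_cases ht : N.trace = 0
  · rw [key, ht, zero_smul]
  have hpow : ∀ j, N ^ (j + 1) = N.trace ^ j • N := by
    intro j
    induction j with
    | zero => simp
    | succ j ih => rw [pow_succ, ih, smul_mul_assoc, key, smul_smul, ← pow_succ]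
  have h1 : N.trace ^ k • N = 0 := by rw [← hpow, pow_succ, hk, zero_mul]
  rcases smul_eq_zero.mp h1 with h | h
  · exact absurd h (pow_ne_zero k ht)
  · rw [h, mul_zero]

/-- A `p`-element acts quadratically on a natural module. -/
theorem natural_quadratic {H : Type*} [Group H] {F : Type*} [Field F] {p : ℕ} [Fact p.Prime] [CharP F p]
    {V : Subgroup H} (h : IsNaturalSL2Module F V ⊤) {y : H} {k : ℕ} (hy : y ^ p ^ k = 1) {v : H} (hv : v ∈ V)
    (a b : ℕ) : ⁅⁅v, y ^ a⁆, y ^ b⁆ = 1 := by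
  obtain ⟨-, ρ, ψ, -, -, hact⟩ := h
  set Y : ↥(⊤ : Subgroup H) := ⟨y, trivial⟩
  set m : Matrix (Fin 2) (Fin 2) F := (ρ Y : Matrix.SpecialLinearGroup (Fin 2) F).1 with hm
  have hmk : (m - 1) ^ p ^ k = 0 := by
    rw [sub_pow_char_pow_of_commute p k (Commute.one_right m), one_pow, sub_eq_zero, hm,
      ← Matrix.SpecialLinearGroup.coe_pow, ← map_pow, show Y ^ p ^ k = 1 from Subtype.ext hy, map_one]
    rfl
  have hN := mul_self_eq_zero_of_pow _ hmk
  have hma : ∀ a : ℕ, m ^ a = 1 + (a : Matrix (Fin 2) (Fin 2) F) * (m - 1) := by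
    intro a
    induction a with
    | zero => simp
    | succ a ih =>
      rw [pow_succ, ih]
      have e : (1 + (a : Matrix (Fin 2) (Fin 2) F) * (m - 1)) * m =
          1 + ((a + 1 : ℕ) : Matrix (Fin 2) (Fin 2) F) * (m - 1) +
            (a : Matrix (Fin 2) (Fin 2) F) * ((m - 1) * (m - 1)) := by
        push_cast; noncomm_ring
      rw [e, hN, mul_zero, add_zero]
  have hcomm : ∀ (w : ↥V) (a : ℕ), ∃ w' : ↥V, (w' : H) = ⁅(w : H), y ^ a⁆ ∧
      ψ (Additive.ofMul w') = (-((a : Matrix (Fin 2) (Fin 2) F) * (m - 1))).mulVec (ψ (Additive.ofMul w)) := by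
    intro w a
    obtain ⟨c, hc, hψc⟩ := hact (Y ^ a) w⁻¹
    refine ⟨w * c, ?_, ?_⟩
    · rw [Subgroup.coe_mul, hc, commutatorElement_def, Subgroup.coe_inv, SubgroupClass.coe_pow]
      show (w : H) * (y ^ a * (w : H)⁻¹ * (y ^ a)⁻¹) = _
      group
    · rw [ofMul_mul, map_add, hψc, map_pow, Matrix.SpecialLinearGroup.coe_pow, ← hm, hma, ofMul_inv, map_neg,
        Matrix.mulVec_neg, Matrix.add_mulVec, Matrix.one_mulVec, Matrix.neg_mulVec]
      abel
  obtain ⟨w, hw, hψw⟩ := hcomm ⟨v, hv⟩ a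
  obtain ⟨w', hw', hψw'⟩ := hcomm w b
  have h0 : ψ (Additive.ofMul w') = 0 := by
    rw [hψw', hψw, Matrix.mulVec_mulVec]
    have e : -((b : Matrix (Fin 2) (Fin 2) F) * (m - 1)) * -((a : Matrix (Fin 2) (Fin 2) F) * (m - 1)) = 0 := by
      rw [neg_mul_neg, mul_assoc, ← mul_assoc (m - 1), ← (Nat.cast_commute a (m - 1)).eq, mul_assoc, hN,
        mul_zero, mul_zero]
    rw [e, Matrix.zero_mulVec]
  have h1 : Additive.ofMul w' = 0 := ψ.injective (h0.trans ψ.map_zero.symm)
  have h2 : (w' : H) = 1 := congrArg Subtype.val (show w' = 1 from h1)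
  rw [← hw, ← hw', h2]

end CfsgLib.TwoSubgroup16
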