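import Mathlib.GroupTheory.QuotientGroup.Basic
import Mathlib.GroupTheory.Subgroup.Centralizer
import Mathlib.GroupTheory.Commutator.Basic

/-!
The elements acting trivially on `W` modulo `N`.
-/

set_option autoImplicit false

namespace CfsgLib.TwoSubgroup16

variable {X : Type*} [Group X]

/-- The elements acting trivially on `W` modulo the normal subgroup `N`. -/
def trivMod (W N : Subgroup X) [N.Normal] : Subgroup X :=
  (Subgroup.centralizer ((W.map (QuotientGroup.mk' N) : Subgroup (X ⧸ N)) : Set (X ⧸ N))).comap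
    (QuotientGroup.mk' N)

theorem mem_trivMod {W N : Subgroup X} [N.Normal] {g : X} :
    g ∈ trivMod W N ↔ ∀ w ∈ W, g * w * g⁻¹ * w⁻¹ ∈ N := by
  rw [trivMod, Subgroup.mem_comap, Subgroup.mem_centralizer_iff]
  have key : ∀ w : X, (w : X ⧸ N) * (g : X ⧸ N) = (g : X ⧸ N) * w ↔ g * w * g⁻¹ * w⁻¹ ∈ N := by
    intro w
    rw [← QuotientGroup.eq_one_iff (N := N) (g * w * g⁻¹ * w⁻¹)]
    simp only [QuotientGroup.mk_mul, QuotientGroup.mk_inv]
    rw [mul_inv_eq_one, mul_inv_eq_iff_eq_mul]
    exact eq_comm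
  constructor
  · intro h w hw
    exact (key w).mp (h _ ⟨w, hw, rfl⟩)
  · rintro h _ ⟨w, hw, rfl⟩
    exact (key w).mpr (h w hw)

instance trivMod_normal (W N : Subgroup X) [W.Normal] [N.Normal] : (trivMod W N).Normal := by
  haveI : (W.map (QuotientGroup.mk' N)).Normal :=
    Subgroup.Normal.map inferInstance _ (QuotientGroup.mk'_surjective N)
  exact Subgroup.Normal.comap inferInstance _

end CfsgLib.TwoSubgroup16
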