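import Mathlib

/-!
A `p`-group of additive automorphisms of `F²` normalising `SL₂(F)` acts semilinearly, and its order times the
number of its fixed vectors is at most `|F|²`.
-/

set_option autoImplicit false

open scoped MatrixGroups

namespace CfsgLib.TwoSubgroup16

variable {F : Type*} [Field F]

/-- An additive map of `F²` commuting with `SL₂(F)` is a scalar. -/
theorem scalar_of_commute (f : (Fin 2 → F) →+ (Fin 2 → F))
    (h : ∀ (g : SL(2, F)) x, f ((g : Matrix (Fin 2) (Fin 2) F).mulVec x) =
      (g : Matrix (Fin 2) (Fin 2) F).mulVec (f x)) :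
    ∃ c : F, ∀ x, f x = c • x := by
  let u : F → SL(2, F) := fun a => ⟨!![1, a; 0, 1], by simp [Matrix.det_fin_two]⟩
  let l : F → SL(2, F) := fun a => ⟨!![1, 0; a, 1], by simp [Matrix.det_fin_two]⟩
  have h1 : ∀ x, f ![x, 0] 1 = 0 := by
    intro x
    have h0 := congrFun (h (u 1) ![x, 0]) 0
    have e : (u 1 : Matrix (Fin 2) (Fin 2) F).mulVec ![x, 0] = ![x, 0] := by
      ext i; fin_cases i <;> simp [u, Matrix.mulVec, dotProduct, Fin.sum_univ_two]
    rw [e] at h0
    simpa [u, Matrix.mulVec, dotProduct, Fin.sum_univ_two] using h0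
  have h2 : ∀ y, f ![0, y] 0 = 0 := by
    intro y
    have h0 := congrFun (h (l 1) ![0, y]) 1
    have e : (l 1 : Matrix (Fin 2) (Fin 2) F).mulVec ![0, y] = ![0, y] := by
      ext i; fin_cases i <;> simp [l, Matrix.mulVec, dotProduct, Fin.sum_univ_two]
    rw [e] at h0
    simpa [l, Matrix.mulVec, dotProduct, Fin.sum_univ_two] using h0
  have h3 : ∀ a y, f ![a * y, 0] 0 = a * f ![0, y] 1 := by
    intro a y
    have h0 := congrFun (h (u a) ![0, y]) 0
    have e : (u a : Matrix (Fin 2) (Fin 2) F).mulVec ![0, y] = ![a * y, 0] + ![0, y] := by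
      ext i; fin_cases i <;> simp [u, Matrix.mulVec, dotProduct, Fin.sum_univ_two]
    rw [e, map_add] at h0
    simpa [u, Matrix.mulVec, dotProduct, Fin.sum_univ_two, h2] using h0
  have h4 : ∀ y, f ![y, 0] 0 = f ![0, y] 1 := fun y => by simpa using h3 1 y
  refine ⟨f ![1, 0] 0, fun x => ?_⟩
  have hx : x = ![x 0, 0] + ![0, x 1] := by ext i; fin_cases i <;> simp
  have e0 : f ![x 0, 0] 0 = f ![1, 0] 0 * x 0 := by
    have := h3 (x 0) 1
    rw [mul_one, ← h4 1] at this
    rw [this, mul_comm]
  have e1 : f ![0, x 1] 1 = f ![1, 0] 0 * x 1 := by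
    rw [← h4]
    have := h3 (x 1) 1
    rw [mul_one, ← h4 1] at this
    rw [this, mul_comm]
  ext i
  conv_lhs => rw [hx, map_add]
  fin_cases i
  · simp [e0, h2]
  · simp [e1, h1]

variable [Finite F] {A : Type*} [Group A]

/-- The additive automorphisms of the group `A` carry `SL₂(F)`-conjugation to `SL₂(F)`. -/
def NormalizesSL (α : A →* AddMonoid.End (Fin 2 → F)) : Prop :=
  ∀ (a : A) (g : SL(2, F)), ∃ h : SL(2, F), ∀ x,
    α a ((g : Matrix (Fin 2) (Fin 2) F).mulVec x) = (h : Matrix (Fin 2) (Fin 2) F).mulVec (α a x)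

/-- The field automorphism attached to a semilinear map. -/
theorem exists_fieldHom (α : A →* AddMonoid.End (Fin 2 → F)) (hn : NormalizesSL α) :
    ∃ σ : A →* (F ≃+* F), ∀ a (c : F) x, α a (c • x) = σ a c • α a x := by
  classical
  have hmm : ∀ a b x, α (a * b) x = α a (α b x) := fun a b x => by rw [map_mul]; rfl
  have hcan : ∀ a x, α a⁻¹ (α a x) = x := fun a x => by rw [← hmm, inv_mul_cancel, map_one]; rfl
  have hcan' : ∀ a x, α a (α a⁻¹ x) = x := fun a x => by rw [← hmm, mul_inv_cancel, map_one]; rfl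
  have key : ∀ a (c : F), ∃ s : F, ∀ x, α a (c • x) = s • α a x := by
    intro a c
    let f : (Fin 2 → F) →+ (Fin 2 → F) :=
      { toFun := fun x => α a (c • α a⁻¹ x)
        map_zero' := by simp
        map_add' := fun x y => by simp [smul_add, map_add] }
    have hf : ∀ (g : SL(2, F)) x, f ((g : Matrix (Fin 2) (Fin 2) F).mulVec x) =
        (g : Matrix (Fin 2) (Fin 2) F).mulVec (f x) := by
      intro g x
      obtain ⟨g', hg'⟩ := hn a⁻¹ g
      show α a (c • α a⁻¹ _) = _
      rw [hg', ← Matrix.mulVec_smul]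
      obtain ⟨g'', hg''⟩ := hn a g'
      rw [hg'']
      have hgg : ∀ z, (g'' : Matrix (Fin 2) (Fin 2) F).mulVec z = (g : Matrix (Fin 2) (Fin 2) F).mulVec z := by
        intro z
        rw [← hcan' a z, ← hg'', ← hg', hcan', hcan']
      rw [hgg]
      rfl
    obtain ⟨s, hs⟩ := scalar_of_commute f hf
    refine ⟨s, fun x => ?_⟩
    have := hs (α a x)
    change α a (c • α a⁻¹ (α a x)) = _ at this
    rwa [hcan] at this
  choose s hs using key
  have hne : ∀ a, α a ![1, 0] ≠ 0 := fun a h => by
    have := hcan a ![1, 0]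
    rw [h, map_zero] at this
    simpa using congrFun this.symm 0
  have huniq : ∀ a c t, α a (c • ![1, 0]) = t • α a ![1, 0] → s a c = t := fun a c t h =>
    smul_left_injective F (hne a) ((hs a c _).symm.trans h)
  have hinj : ∀ a, Function.Injective (s a) := by
    intro a c d h
    have h1 : α a (c • ![1, 0]) = α a (d • ![1, 0]) := by rw [hs, hs, h]
    have hne' : (![1, 0] : Fin 2 → F) ≠ 0 := fun e => by simpa using congrFun e 0
    have h2 : c • (![1, 0] : Fin 2 → F) = d • ![1, 0] := by rw [← hcan a (c • ![1, 0]), h1, hcan]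
    exact smul_left_injective F hne' h2
  let σ : A → (F ≃+* F) := fun a => RingEquiv.ofBijective
    ({ toFun := s a
       map_one' := huniq a 1 1 (by rw [one_smul, one_smul])
       map_mul' := fun c d => huniq a _ _ (by rw [mul_smul, hs, hs, mul_smul])
       map_zero' := huniq a 0 0 (by rw [zero_smul, zero_smul, map_zero])
       map_add' := fun c d => huniq a _ _ (by rw [add_smul, map_add, hs, hs, add_smul]) } : F →+* F)
    ⟨hinj a, Finite.surjective_of_injective (hinj a)⟩
  have hσ : ∀ a c, σ a c = s a c := fun _ _ => rfl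
  refine ⟨MonoidHom.mk' σ fun a b => RingEquiv.ext fun c => ?_, fun a c x => hs a c x⟩
  show σ (a * b) c = σ a (σ b c)
  rw [hσ, hσ, hσ]
  refine huniq _ _ _ ?_
  rw [hmm, hs, hs, hmm]

variable {p : ℕ} [Fact p.Prime]

/-- The bound for semilinear `p`-groups on `F²`. -/
theorem semilinear_bound (hp : p ≠ 2) [CharP F p] [Finite A] (hA : IsPGroup p A)
    (α : A →* AddMonoid.End (Fin 2 → F)) (hinj : Function.Injective α) (hn : NormalizesSL α) :
    Nat.card {a : A // ∀ (c : F) x, α a (c • x) = c • α a x} ≤ Nat.card F ∧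
    Nat.card A * Nat.card {x : Fin 2 → F // ∀ a, α a x = x} ≤ Nat.card F ^ 2 ∧
      (Nat.card A * Nat.card {x : Fin 2 → F // ∀ a, α a x = x} = Nat.card F ^ 2 →
        (∀ a (c : F) x, α a (c • x) = c • α a x) ∧ (Subsingleton A ∨ Nat.card A = Nat.card F)) := by
  classical
  have hmm : ∀ a b x, α (a * b) x = α a (α b x) := fun a b x => by rw [map_mul]; rfl
  haveI := Fintype.ofFinite F
  obtain ⟨σ, hσ⟩ := exists_fieldHom α hn
  set P₀ := σ.ker
  set G₀ := σ.range
  haveI : Finite (F ≃+* F) := Finite.of_injective (fun e : F ≃+* F => (e : F → F)) DFunLike.coe_injective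
  haveI : Fintype G₀ := Fintype.ofFinite _
  set F₀ := FixedPoints.subfield G₀ F with hF₀
  set d := Nat.card G₀ with hd
  set f := Nat.card F₀ with hf
  set C := {x : Fin 2 → F // ∀ a, α a x = x}
  have hcA : Nat.card A = Nat.card P₀ * d := by
    rw [← P₀.card_mul_index, Subgroup.index_ker]
  have hq : Nat.card F = f ^ d := by
    rw [Module.natCard_eq_pow_finrank (K := F₀) (V := F)]
    congr 1
    exact (FixedPoints.finrank_eq_card G₀ F).trans Nat.card_eq_fintype_card.symm
  have hadd : ∀ a x y, α a (x + y) = α a x + α a y := fun a x y => AddMonoidHom.map_add (α a) x y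
  have hlin : ∀ a ∈ P₀, ∀ (c : F) x, α a (c • x) = c • α a x := by
    intro a ha c x
    rw [hσ, MonoidHom.mem_ker.mp ha]
    rfl
  have hf2 : 2 ≤ f := Finite.one_lt_card
  have hfix0 : ∀ c : F, (∀ a, σ a c = c) → c ∈ F₀ := by
    rintro c hc ⟨_, a, rfl⟩
    exact hc a
  -- the linear part has order at most `q` and fixes only a line unless trivial
  have hP₀q : Nat.card P₀ ≤ Nat.card F := by
    have hcard : p ∣ Nat.card (Fin 2 → F) := by
      obtain ⟨n, -, hn⟩ := FiniteField.card F p
      rw [Nat.card_fun, Nat.card_eq_fintype_card (α := F), hn, Nat.card_eq_fintype_card, Fintype.card_fin,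
        ← pow_mul]
      exact dvd_pow_self p (by positivity)
    letI : MulAction P₀ (Fin 2 → F) :=
      { smul := fun a x => α a x
        one_smul := fun x => by show α ((1 : P₀) : A) x = x; rw [OneMemClass.coe_one, map_one]; rfl
        mul_smul := fun a b x => hmm a b x }
    obtain ⟨e, he, hne⟩ := (hA.to_subgroup P₀).exists_fixed_point_of_prime_dvd_card_of_fixed_point
      (α := Fin 2 → F) hcard (a := 0) (fun a => map_zero (α (a : A)))
    have hefix : ∀ a : P₀, α a e = e := fun a => he a
    obtain ⟨w, hw⟩ : ∃ w : Fin 2 → F, LinearIndependent F ![e, w] := by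
      by_cases h0 : e 0 = 0
      · refine ⟨![1, 0], LinearIndependent.pair_iff.mpr fun s t hst => ?_⟩
        have h1 : e 1 ≠ 0 := fun h1 => hne (by ext i; fin_cases i <;> simp [h0, h1])
        have a0 := congrFun hst 0
        have a1 := congrFun hst 1
        simp [h0] at a0 a1
        exact ⟨by simpa [a0, h1] using a1, a0⟩
      · refine ⟨![0, 1], LinearIndependent.pair_iff.mpr fun s t hst => ?_⟩
        have a0 := congrFun hst 0
        have a1 := congrFun hst 1
        simp [h0] at a0 a1
        exact ⟨a0, by simpa [a0] using a1⟩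
    let B := basisOfLinearIndependentOfCardEqFinrank hw (by simp)
    have hBe : ∀ i, B i = ![e, w] i := fun i => by simp [B]
    have hrep : ∀ x, x = B.repr x 0 • e + B.repr x 1 • w := by
      intro x
      conv_lhs => rw [← B.sum_repr x]
      simp [Fin.sum_univ_two, hBe]
    have hdiag : ∀ a : P₀, α a w = B.repr (α a w) 0 • e + w := by
      intro a
      obtain ⟨k, hk⟩ := hA (a : A)
      set β := B.repr (α a w) 1
      set γ := B.repr (α a w) 0
      have hit : ∀ n : ℕ, ∃ t : F, α ((a : A) ^ n) w = t • e + β ^ n • w := by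
        intro n
        induction n with
        | zero => exact ⟨0, by rw [pow_zero, map_one, zero_smul, zero_add, pow_zero, one_smul]; rfl⟩
        | succ n ih =>
          obtain ⟨t, ht⟩ := ih
          refine ⟨t + β ^ n * γ, ?_⟩
          rw [pow_succ', hmm, ht, hadd, hlin _ a.2, hlin _ a.2, hefix,
            hrep (α a w), smul_add, smul_smul, smul_smul, add_smul, add_assoc, pow_succ']
          congr 2
          rw [mul_comm β]
      obtain ⟨t, ht⟩ := hit (p ^ k)
      rw [hk, map_one] at ht
      change w = _ at ht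
      have hβ : β ^ p ^ k = 1 := by
        have h1 := congrArg (fun x => B.repr x 1) ht
        have ee : B.repr e = Finsupp.single 0 1 := by rw [← B.repr_self 0, hBe]; rfl
        have ew : B.repr w = Finsupp.single 1 1 := by rw [← B.repr_self 1, hBe]; rfl
        simpa [ee, ew] using h1.symm
      have hβ1 : β = 1 := by
        have h1 : (β - 1) ^ p ^ k = 0 := by rw [sub_pow_char_pow, hβ, one_pow, sub_self]
        exact sub_eq_zero.mp (pow_eq_zero_iff (pow_ne_zero k (Fact.out : p.Prime).ne_zero) |>.mp h1)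
      conv_lhs => rw [hrep (α a w), show B.repr (α a w) 1 = β from rfl, hβ1, one_smul]
    refine Nat.card_le_card_of_injective (fun a : P₀ => B.repr (α a w) 0) fun a b hab => ?_
    refine Subtype.ext (hinj (DFunLike.ext _ _ fun x => ?_))
    have h1 : α a w = α b w := by
      rw [hdiag a, hdiag b]
      exact congrArg (fun c : F => c • e + w) hab
    rw [hrep x, hadd, hadd, hlin _ a.2, hlin _ a.2, hlin _ b.2, hlin _ b.2, hefix, hefix, h1]
  refine ⟨le_trans (Nat.card_le_card_of_injective
    (fun a => (⟨a.1, ?_⟩ : P₀)) fun a b h => Subtype.ext (congrArg Subtype.val h :)) hP₀q, ?_⟩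
  · refine MonoidHom.mem_ker.mpr (RingEquiv.ext fun c => ?_)
    obtain ⟨x, hx⟩ : ∃ x, α a.1 x ≠ 0 := by
      refine ⟨![1, 0], fun h => ?_⟩
      have h1 : α a.1⁻¹ (α a.1 ![1, 0]) = ![1, 0] := by rw [← hmm, inv_mul_cancel, map_one]; rfl
      rw [h, map_zero] at h1
      simpa using congrFun h1.symm 0
    exact smul_left_injective F hx ((hσ _ c x).symm.trans (a.2 c x))
  -- the fixed vectors
  have hC : (Nat.card P₀ = 1 ∧ Nat.card C ≤ f ^ 2) ∨ Nat.card C ≤ f := by
    by_cases h : ∃ u w : C, LinearIndependent F ![u.1, w.1]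
    · obtain ⟨u, w, huw⟩ := h
      let B := basisOfLinearIndependentOfCardEqFinrank huw (by simp)
      have hBe : ∀ i, B i = ![u.1, w.1] i := fun i => by simp [B]
      have hrep : ∀ x, x = B.repr x 0 • u.1 + B.repr x 1 • w.1 := by
        intro x
        conv_lhs => rw [← B.sum_repr x]
        simp [Fin.sum_univ_two, hBe]
      refine Or.inl ⟨?_, ?_⟩
      · rw [Subgroup.card_eq_one, eq_bot_iff]
        intro a ha
        refine Subgroup.mem_bot.mpr (hinj ?_)
        rw [map_one]
        refine DFunLike.ext _ _ fun x => ?_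
        show α a x = x
        conv_lhs => rw [hrep x, hadd, hlin _ ha, hlin _ ha, u.2, w.2, ← hrep x]
      · have hmem : ∀ x : C, ∀ i, B.repr x.1 i ∈ F₀ := by
          intro x i
          refine hfix0 _ fun a => ?_
          have h1 : σ a (B.repr x.1 0) • u.1 + σ a (B.repr x.1 1) • w.1 =
              B.repr x.1 0 • u.1 + B.repr x.1 1 • w.1 := by
            conv_rhs => rw [← hrep, ← x.2 a]
            conv_rhs => rw [hrep x.1, hadd, hσ, hσ, u.2, w.2]
          have h2 := LinearIndependent.pair_iff.mp huw (σ a (B.repr x.1 0) - B.repr x.1 0)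
            (σ a (B.repr x.1 1) - B.repr x.1 1)
            (by rw [sub_smul, sub_smul, sub_add_sub_comm, h1, sub_self])
          fin_cases i
          · exact sub_eq_zero.mp h2.1
          · exact sub_eq_zero.mp h2.2
        refine (Nat.card_le_card_of_injective
          (fun x : C => fun i : Fin 2 => (⟨B.repr x.1 i, hmem x i⟩ : F₀)) fun x y hxy => ?_).trans
          (le_of_eq (by rw [Nat.card_fun, Nat.card_fin, hf]))
        refine Subtype.ext (B.repr.injective (Finsupp.ext fun i => ?_))
        exact congrArg Subtype.val (congrFun hxy i)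
    · refine Or.inr ?_
      by_cases h0 : ∃ u : C, u.1 ≠ 0
      · obtain ⟨u, hu⟩ := h0
        have hspan : ∀ x : C, ∃ c : F₀, x.1 = (c : F) • u.1 := by
          intro x
          by_cases hc : ∃ c : F, c • u.1 = x.1
          · obtain ⟨c, hc⟩ := hc
            refine ⟨⟨c, hfix0 c fun a => smul_left_injective F hu ?_⟩, hc.symm⟩
            show σ a c • u.1 = c • u.1
            rw [hc, ← x.2 a, ← hc, hσ, u.2]
          · push Not at hc
            exact absurd ⟨u, x, (LinearIndependent.pair_iff' hu).mpr hc⟩ h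
        choose c hc using hspan
        exact Nat.card_le_card_of_injective c fun x y hxy => Subtype.ext (by rw [hc x, hc y, hxy])
      · push Not at h0
        refine le_trans ?_ (le_trans one_le_two hf2)
        rw [Finite.card_le_one_iff_subsingleton]
        exact ⟨fun x y => Subtype.ext ((h0 x).trans (h0 y).symm)⟩
  have hd1 : 1 ≤ d := Nat.card_pos
  rcases Nat.lt_or_ge d 2 with hd2 | hd2
  · obtain hd' : d = 1 := by omega
    rw [hd', mul_one] at hcA
    rw [hd', pow_one] at hq
    have hP₀top : P₀ = ⊤ := Subgroup.eq_top_of_card_eq _ hcA.symm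
    have hlin' : ∀ a (c : F) x, α a (c • x) = c • α a x := fun a =>
      hlin a (hP₀top ▸ Subgroup.mem_top a)
    rcases hC with ⟨h1, hC⟩ | hC
    · refine ⟨by rw [hcA, h1, one_mul, hq]; exact hC, fun _ => ⟨hlin', Or.inl ?_⟩⟩
      rw [← Finite.card_le_one_iff_subsingleton, hcA, h1]
    · refine ⟨?_, fun he => ⟨hlin', Or.inr ?_⟩⟩
      · rw [hcA, sq]
        exact Nat.mul_le_mul hP₀q (hC.trans hq.ge)
      · have h2 : Nat.card A ≤ Nat.card F := hcA ▸ hP₀q
        refine le_antisymm h2 (Nat.le_of_mul_le_mul_right ?_ (show 0 < Nat.card F from Nat.card_pos))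
        rw [← sq, ← he]
        exact Nat.mul_le_mul_left _ (hC.trans hq.ge)
  · have hd3 : 3 ≤ d := by
      obtain ⟨k, hk⟩ := IsPGroup.iff_card.mp ((hA.to_quotient P₀).of_equiv
        (QuotientGroup.quotientKerEquivRange σ))
      have hk1 : 1 ≤ k := Nat.one_le_iff_ne_zero.mpr fun h0 => by rw [h0, pow_zero] at hk; change d = 1 at hk; omega
      have hp3 : 3 ≤ p := lt_of_le_of_ne (Fact.out : p.Prime).two_le (Ne.symm hp)
      calc 3 ≤ p := hp3
        _ ≤ p ^ k := Nat.le_self_pow (by omega) p
        _ = d := hk.symm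
    have hdlt : d < f ^ (d - 1) := by
      have key : ∀ m, 3 ≤ m → m < 2 ^ (m - 1) := by
        intro m hm
        induction m, hm using Nat.le_induction with
        | base => norm_num
        | succ m hm ih =>
          rw [show m + 1 - 1 = (m - 1) + 1 by omega, pow_succ]
          omega
      exact (key d hd3).trans_le (Nat.pow_le_pow_left hf2 _)
    have hlt : Nat.card A * Nat.card C < Nat.card F ^ 2 := by
      rw [hcA, hq, ← pow_mul]
      rcases hC with ⟨h1, hC⟩ | hC
      · rw [h1, one_mul]
        calc d * Nat.card C ≤ d * f ^ 2 := Nat.mul_le_mul_left _ hC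
          _ < f ^ (d - 1) * f ^ 2 := by gcongr
          _ ≤ f ^ (d * 2) := by rw [← pow_add]; exact Nat.pow_le_pow_right (by omega) (by omega)
      · calc Nat.card P₀ * d * Nat.card C ≤ f ^ d * d * f := by
              rw [← hq]; exact Nat.mul_le_mul (Nat.mul_le_mul_right _ hP₀q) hC
          _ < f ^ d * f ^ (d - 1) * f := by gcongr
          _ = f ^ (d * 2) := by rw [← pow_add, ← pow_succ]; congr 1; omega
    exact ⟨hlt.le, fun he => absurd he hlt.ne⟩

end CfsgLib.TwoSubgroup16
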