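import Cfsg.Agent.TwoSubgroup16.Natural

/-!
The normal closure `V` of `Ω₁(Z(T))` and an offender on it.
-/

set_option autoImplicit false

open Cfsg
open CfsgLib.ConjFunctor (conjOf conjOf_conjOf conjOf_one card_conjOf conjOf_mono conj_mem_conjOf mem_normalizer_iff_conjOf conjOf_le_iff mem_conjOf)

namespace CfsgLib.TwoSubgroup16

variable {X : Type*} [Group X] {p : ℕ}

/-- The normal closure of `Ω₁(Z(T))`. -/
def vMod (p : ℕ) (T : Subgroup X) : Subgroup X := Subgroup.normalClosure (zOne p T : Set X)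

instance vMod_normal (p : ℕ) (T : Subgroup X) : (vMod p T).Normal := Subgroup.normalClosure_normal

variable [Finite X] [Fact p.Prime] {T : Sylow p X} {M : Subgroup X}

namespace Core

variable (h : Core p T M)

include h

theorem T_ne_bot : (T : Subgroup X) ≠ ⊥ := fun h0 => h.not_le_pCore (h0 ▸ bot_le)

theorem zOne_ne_bot : zOne p (T : Subgroup X) ≠ ⊥ := by
  haveI : Nontrivial ↥(T : Subgroup X) := (Subgroup.nontrivial_iff_ne_bot _).mpr h.T_ne_bot
  haveI := (T.2).center_nontrivial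
  obtain ⟨n, hn0, hn⟩ := (T.2.to_subgroup (Subgroup.center ↥(T : Subgroup X))).nontrivial_iff_card.mp inferInstance
  obtain ⟨x, hx⟩ := exists_prime_orderOf_dvd_card' p (G := Subgroup.center ↥(T : Subgroup X))
    (by rw [hn]; exact dvd_pow_self p (by omega))
  intro h0
  have hmem : ((x : ↥(T : Subgroup X)) : X) ∈ zOne p (T : Subgroup X) := by
    refine mem_zOne_iff.mpr ⟨(x : ↥(T : Subgroup X)).2, Subgroup.mem_centralizer_iff.mpr fun t ht => ?_, ?_⟩
    · exact congrArg Subtype.val (Subgroup.mem_center_iff.mp x.2 ⟨t, ht⟩)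
    · have h1 : x ^ p = 1 := orderOf_dvd_iff_pow_eq_one.mp (dvd_of_eq hx)
      simpa using congrArg (fun y : Subgroup.center ↥(T : Subgroup X) => ((y : ↥(T : Subgroup X)) : X)) h1
  rw [h0, Subgroup.mem_bot] at hmem
  have : x = 1 := Subtype.ext (Subtype.ext hmem)
  rw [this, orderOf_one] at hx
  exact (Fact.out : p.Prime).ne_one hx.symm

theorem zOne_le : zOne p (T : Subgroup X) ≤ pCore p X ⊓ Subgroup.centralizer (pCore p X : Set X) := by
  intro x hx
  obtain ⟨-, hxc, -⟩ := mem_zOne_iff.mp hx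
  have h1 : x ∈ Subgroup.centralizer (pCore p X : Set X) := Subgroup.centralizer_le h.pCore_le_T hxc
  exact ⟨h.constrained h1, h1⟩

theorem mem_vMod {x : X} (hx : x ∈ vMod p (T : Subgroup X)) :
    x ∈ pCore p X ∧ x ∈ Subgroup.centralizer (pCore p X : Set X) ∧ x ^ p = 1 := by
  haveI := CfsgLib.ConjFunctor.pCore_normal (G := X) p
  induction hx using Subgroup.closure_induction with
  | mem x hx =>
    rw [Group.mem_conjugatesOfSet_iff] at hx
    obtain ⟨z, hz, hzx⟩ := hx
    obtain ⟨g, rfl⟩ := isConj_iff.mp hzx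
    have hz1 := h.zOne_le hz
    have hz2 := (mem_zOne_iff.mp hz).2.2
    haveI hn : (Subgroup.centralizer (pCore p X : Set X)).Normal := inferInstance
    exact ⟨Subgroup.Normal.conj_mem inferInstance z hz1.1 g, hn.conj_mem z hz1.2 g,
      by rw [conj_pow, hz2, mul_one, mul_inv_cancel]⟩
  | one => exact ⟨one_mem _, one_mem _, one_pow p⟩
  | mul a b _ _ ha hb =>
    have hc : Commute a b := (Subgroup.mem_centralizer_iff.mp hb.2.1 a ha.1)
    exact ⟨mul_mem ha.1 hb.1, mul_mem ha.2.1 hb.2.1, by rw [hc.mul_pow, ha.2.2, hb.2.2, one_mul]⟩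
  | inv a _ ha => exact ⟨inv_mem ha.1, inv_mem ha.2.1, by rw [inv_pow, ha.2.2, inv_one]⟩

theorem vMod_el : IsElementaryAbelian p (vMod p (T : Subgroup X)) :=
  CfsgLib.LocalP.isElementaryAbelian_iff.mpr
    ⟨fun _ hx _ hy => (Subgroup.mem_centralizer_iff.mp (h.mem_vMod hy).2.1 _ (h.mem_vMod hx).1),
      fun _ ha => (h.mem_vMod ha).2.2⟩

theorem pCore_le_centralizer_vMod : pCore p X ≤ Subgroup.centralizer (vMod p (T : Subgroup X) : Set X) :=
  Subgroup.le_centralizer_iff.mpr fun _ hx => (h.mem_vMod hx).2.1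

theorem vMod_le_T : vMod p (T : Subgroup X) ≤ (T : Subgroup X) :=
  fun _ hx => h.pCore_le_T (h.mem_vMod hx).1

theorem centralizer_zOne_le : Subgroup.centralizer (zOne p (T : Subgroup X) : Set X) ≤ M := by
  refine h.uniq _ (fun t ht => Subgroup.mem_centralizer_iff.mpr fun z hz =>
    (Subgroup.mem_centralizer_iff.mp (mem_zOne_iff.mp hz).2.1 t ht).symm) fun htop => ?_
  refine h.nochar _ (charIn_zOne _) h.zOne_ne_bot ⟨fun z hz g => ?_⟩
  have hg : g ∈ Subgroup.centralizer (zOne p (T : Subgroup X) : Set X) := htop ▸ Subgroup.mem_top g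
  rw [← Subgroup.mem_centralizer_iff.mp hg z hz, mul_inv_cancel_right]
  exact hz

theorem centralizer_vMod_le : Subgroup.centralizer (vMod p (T : Subgroup X) : Set X) ≤ M :=
  (Subgroup.centralizer_le Subgroup.subset_normalClosure).trans h.centralizer_zOne_le

theorem inf_centralizer_vMod :
    (T : Subgroup X) ⊓ Subgroup.centralizer (vMod p (T : Subgroup X) : Set X) = pCore p X :=
  le_antisymm (h.inf_le_pCore h.centralizer_vMod_le) (le_inf h.pCore_le_T h.pCore_le_centralizer_vMod)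

theorem thompson_not_le : ¬ thompsonSubgroupOf p (T : Subgroup X) ≤ pCore p X := by
  intro hle
  haveI := CfsgLib.ConjFunctor.pCore_normal (G := X) p
  refine h.nochar _ (charIn_thompson (p := p) _) ?_ ?_
  · obtain ⟨A, hA⟩ := CfsgLib.LocalP.exists_maxElemIn (p := p) (T : Subgroup X)
    intro h0
    have hV := hA.2.2 _ h.vMod_le_T h.vMod_el
    have hA0 : A = ⊥ := le_bot_iff.mp (h0 ▸ (le_sSup hA).trans (CfsgLib.LocalP.thompsonSubgroupOf_eq_sSup _).ge)
    rw [hA0, Subgroup.card_bot] at hV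
    have h1 : vMod p (T : Subgroup X) = ⊥ := Subgroup.eq_bot_of_card_le _ hV
    exact h.zOne_ne_bot (le_bot_iff.mp (h1 ▸ Subgroup.subset_normalClosure))
  · rw [← CfsgLib.LocalP.thompsonSubgroupOf_eq_of_le h.pCore_le_T hle]
    refine Subgroup.normalizer_eq_top_iff.mp (top_le_iff.mp ?_)
    refine le_trans ?_ (CfsgLib.LocalP.le_normalizer_thompsonSubgroupOf _)
    rw [Subgroup.normalizer_eq_top]

theorem exists_offender : ∃ A ∈ CfsgLib.LocalP.maxElemIn p (T : Subgroup X), ¬ A ≤ pCore p X := by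
  by_contra hcon
  push Not at hcon
  exact h.thompson_not_le ((CfsgLib.LocalP.thompsonSubgroupOf_eq_sSup _).le.trans (sSup_le hcon))

theorem inf_vMod_eq {A : Subgroup X} (hA : A ∈ CfsgLib.LocalP.maxElemIn p (T : Subgroup X)) :
    vMod p (T : Subgroup X) ⊓ A = vMod p (T : Subgroup X) ⊓ Subgroup.centralizer (A : Set X) := by
  refine le_antisymm ?_ ?_
  · exact inf_le_inf_left _ fun a ha => Subgroup.mem_centralizer_iff.mpr fun b hb =>
      (CfsgLib.LocalP.isElementaryAbelian_iff.mp hA.2.1).1 b hb a ha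
  · rintro v ⟨hv, hvA⟩
    exact ⟨hv, CfsgLib.LocalP.mem_of_centralizes hA (h.vMod_le_T hv) (h.mem_vMod hv).2.2
      fun a ha => Subgroup.mem_centralizer_iff.mp hvA a ha⟩

/-- The offender inequality for a member of `𝒜(T)`. -/
theorem card_le_of_maxElemIn {A : Subgroup X} (hA : A ∈ CfsgLib.LocalP.maxElemIn p (T : Subgroup X)) :
    Nat.card (vMod p (T : Subgroup X)) *
        Nat.card ↥(A ⊓ Subgroup.centralizer (vMod p (T : Subgroup X) : Set X)) ≤
      Nat.card A * Nat.card ↥(vMod p (T : Subgroup X) ⊓ Subgroup.centralizer (A : Set X)) := by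
  set V := vMod p (T : Subgroup X)
  set B := A ⊓ Subgroup.centralizer (V : Set X)
  have hBel : IsElementaryAbelian p (B ⊔ V) :=
    CfsgLib.LocalP.isElementaryAbelian_sup (CfsgLib.LocalP.isElementaryAbelian_mono hA.2.1 inf_le_left) h.vMod_el
      fun b hb v hv => (Subgroup.mem_centralizer_iff.mp hb.2 v hv).symm
  have h1 := hA.2.2 _ (sup_le (inf_le_left.trans hA.1) h.vMod_le_T) hBel
  have h2 := CfsgLib.LocalP.card_mul_le_card_sup_mul_card_inf B V
  have h3 : B ⊓ V ≤ V ⊓ Subgroup.centralizer (A : Set X) := by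
    rw [← h.inf_vMod_eq hA]
    exact le_inf inf_le_right (inf_le_left.trans inf_le_left)
  calc Nat.card V * Nat.card B = Nat.card B * Nat.card V := mul_comm _ _
    _ ≤ Nat.card ↥(B ⊔ V) * Nat.card ↥(B ⊓ V) := h2
    _ ≤ _ := Nat.mul_le_mul h1 (Subgroup.card_le_of_le h3)

end Core

end CfsgLib.TwoSubgroup16
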